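import Mathlib

/-! # Hall–Higman critical case: basic definitions -/

set_option autoImplicit false

namespace Cfsg.Agent.Lib.Helper61.HH

open Module

universe u v w

variable {K : Type u} [Field K] {W : Type v} [AddCommGroup W] [Module K W]

/-- the relative trace `Σ_{j<N} T^j S Ti^j` (`Ti` is meant to be the inverse of `T`). -/
def trX (T Ti : Module.End K W) (N : ℕ) (S : Module.End K W) : Module.End K W :=
  ∑ j ∈ Finset.range N, T ^ j * S * Ti ^ j

/-- `ρ x` is a scalar operator. -/
def IsSc {Q : Type w} [Group Q] (ρ : Q →* Module.End K W) (x : Q) : Prop :=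
  ∃ l : K, ρ x = l • (1 : Module.End K W)

/-- the commutant of `ρ` consists of scalars. -/
def Sch {Q : Type w} [Group Q] (ρ : Q →* Module.End K W) : Prop :=
  ∀ S : Module.End K W, (∀ g, S * ρ g = ρ g * S) → ∃ l : K, S = l • (1 : Module.End K W)

/-- irreducibility, in terms of invariant subspaces. -/
def Irr {Q : Type w} [Group Q] (ρ : Q →* Module.End K W) : Prop :=
  ∀ U : Submodule K W, (∀ g, ∀ y ∈ U, ρ g y ∈ U) → U = ⊥ ∨ U = ⊤

end Cfsg.Agent.Lib.Helper61.HH
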