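import Mathlib

/-! # Regrouping a sum over a free cyclic action -/

set_option autoImplicit false

namespace Cfsg.Agent.Lib.Helper61.HH

universe v

theorem orb_aux {X : Type*} [Fintype X] [DecidableEq X] (θ : Equiv.Perm X) (N : ℕ) (hN : 0 < N)
    (hθ : θ ^ N = 1) (c : ℕ) : ∀ (D : Finset X), D.card = c → (∀ x ∈ D, θ x ∈ D) →
    (∀ x ∈ D, ∀ j, 0 < j → j < N → (θ ^ j) x ≠ x) →
    ∃ Rep : Finset X, Rep ⊆ D ∧ ∀ {M : Type v} [AddCommMonoid M] (f : X → M),
      ∑ x ∈ D, f x = ∑ x ∈ Rep, ∑ j ∈ Finset.range N, f ((θ ^ j) x) := by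
  induction c using Nat.strong_induction_on with
  | _ c ih =>
  intro D hc hD hfree
  rcases D.eq_empty_or_nonempty with rfl | ⟨x0, hx0⟩
  · exact ⟨∅, Finset.Subset.refl _, fun f => by simp⟩
  have hpowD : ∀ j : ℕ, (θ ^ j) x0 ∈ D := by
    intro j
    induction j with
    | zero => simpa using hx0
    | succ j ihj => rw [pow_succ', Equiv.Perm.mul_apply]; exact hD _ ihj
  let O : Finset X := (Finset.range N).image (fun j => (θ ^ j) x0)
  have hOD : O ⊆ D := by
    intro y hy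
    obtain ⟨j, _, rfl⟩ := Finset.mem_image.mp hy
    exact hpowD j
  have hlt : ∀ i j, i < j → j < N → (θ ^ i) x0 ≠ (θ ^ j) x0 := by
    intro i j hij hjN heq
    apply hfree x0 hx0 (j - i) (by omega) (by omega)
    have h1 : (θ ^ j) x0 = (θ ^ i) ((θ ^ (j - i)) x0) := by
      rw [← Equiv.Perm.mul_apply, ← pow_add]; congr 2; omega
    rw [h1] at heq
    exact ((θ ^ i).injective heq).symm
  have hinj : Set.InjOn (fun j => (θ ^ j) x0) (Finset.range N : Set ℕ) := by
    intro i hi j hj heq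
    have hi' : i < N := Finset.mem_range.mp hi
    have hj' : j < N := Finset.mem_range.mp hj
    rcases lt_trichotomy i j with h | h | h
    · exact absurd heq (hlt i j h hj')
    · exact h
    · exact absurd heq.symm (hlt j i h hi')
  have hx0O : x0 ∈ O := Finset.mem_image.mpr ⟨0, Finset.mem_range.mpr hN, by simp⟩
  have hD' : ∀ x ∈ D \ O, θ x ∈ D \ O := by
    intro x hx
    obtain ⟨hxD, hxO⟩ := Finset.mem_sdiff.mp hx
    refine Finset.mem_sdiff.mpr ⟨hD x hxD, fun hθx => hxO ?_⟩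
    obtain ⟨j, hj, hjx⟩ := Finset.mem_image.mp hθx
    have hj' : j < N := Finset.mem_range.mp hj
    rcases Nat.eq_zero_or_pos j with rfl | hjpos
    · refine Finset.mem_image.mpr ⟨N - 1, Finset.mem_range.mpr (by omega), ?_⟩
      apply θ.injective
      rw [← Equiv.Perm.mul_apply, ← pow_succ', Nat.sub_add_cancel hN, hθ, ← hjx]; simp
    · refine Finset.mem_image.mpr ⟨j - 1, Finset.mem_range.mpr (by omega), ?_⟩
      apply θ.injective
      rw [← Equiv.Perm.mul_apply, ← pow_succ', Nat.sub_add_cancel hjpos, hjx]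
  have hcard : (D \ O).card < c := by
    rw [← hc]
    exact Finset.card_lt_card (Finset.sdiff_ssubset hOD ⟨x0, hx0O⟩)
  obtain ⟨Rep', hRep'D, hRep'⟩ := ih _ hcard (D \ O) rfl hD'
    (fun x hx => hfree x (Finset.mem_sdiff.mp hx).1)
  have hx0R : x0 ∉ Rep' := fun h => (Finset.mem_sdiff.mp (hRep'D h)).2 hx0O
  refine ⟨insert x0 Rep', ?_, ?_⟩
  · intro y hy
    rcases Finset.mem_insert.mp hy with rfl | hy
    · exact hx0
    · exact (Finset.mem_sdiff.mp (hRep'D hy)).1
  · intro M _ f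
    rw [Finset.sum_insert hx0R, ← hRep' f, ← Finset.sum_sdiff hOD, add_comm]
    congr 1
    exact Finset.sum_image hinj

/-- ORB: a sum over an invariant set with free action of a cyclic group of order `N`. -/
theorem orb {X : Type*} [Fintype X] [DecidableEq X] (θ : Equiv.Perm X) (N : ℕ) (hN : 0 < N)
    (hθ : θ ^ N = 1) (D : Finset X) (hD : ∀ x ∈ D, θ x ∈ D)
    (hfree : ∀ x ∈ D, ∀ j, 0 < j → j < N → (θ ^ j) x ≠ x) :
    ∃ Rep : Finset X, ∀ {M : Type v} [AddCommMonoid M] (f : X → M),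
      ∑ x ∈ D, f x = ∑ x ∈ Rep, ∑ j ∈ Finset.range N, f ((θ ^ j) x) := by
  obtain ⟨Rep, _, h⟩ := orb_aux.{v} θ N hN hθ _ D rfl hD hfree
  exact ⟨Rep, h⟩

end Cfsg.Agent.Lib.Helper61.HH
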