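import Mathlib
import Cfsg.Agent.Lib.Helper61.HHDefs
import Cfsg.Agent.Lib.Helper61.HHOrb
import Cfsg.Agent.Lib.Helper4.HHCFourier
import Cfsg.Agent.Lib.Helper98.HHCTrace
import Cfsg.Agent.Lib.Helper98.HHCCommop

/-! # The Hall–Higman critical case -/

set_option autoImplicit false

namespace Cfsg.Agent.Lib.Helper61.HH

open Module Cfsg.Agent.Lib.Helper4.HHC Cfsg.Agent.Lib.Helper98.HHC

universe u v w

variable {K : Type u} [Field K] {W : Type v} [AddCommGroup W] [Module K W]
variable {Q : Type w} [Group Q]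

theorem trX_sum_smul {ι : Type*} (T Ti : Module.End K W) (N : ℕ) (R : Finset ι) (a : ι → K)
    (S : ι → Module.End K W) :
    trX T Ti N (∑ x ∈ R, a x • S x) = ∑ x ∈ R, ∑ j ∈ Finset.range N, a x • (T ^ j * S x * Ti ^ j) := by
  unfold trX
  rw [Finset.sum_comm]
  refine Finset.sum_congr rfl (fun j _ => ?_)
  rw [Finset.mul_sum, Finset.sum_mul]
  refine Finset.sum_congr rfl (fun x _ => ?_)
  rw [mul_smul_comm, smul_mul_assoc]

theorem trX_smul (T Ti : Module.End K W) (N : ℕ) (d : K) (S : Module.End K W) :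
    trX T Ti N (d • S) = d • trX T Ti N S := by
  unfold trX
  rw [Finset.smul_sum]
  refine Finset.sum_congr rfl (fun j _ => ?_)
  rw [mul_smul_comm, smul_mul_assoc]

theorem decomp [FiniteDimensional K W] [Nontrivial W] [Finite Q]
    (ρ : Q →* Module.End K W) (hQK : (Nat.card Q : K) ≠ 0) (h : Sch ρ)
    (θ : MulAut Q) (T Ti : Module.End K W) (hTi : T * Ti = 1) (hiT : Ti * T = 1)
    (p s : ℕ) (hp : p.Prime) (hs : 0 < s) (hθP : θ ^ (p ^ s) = 1)
    (hTρ : ∀ x, T * ρ x = ρ (θ x) * T)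
    (hfree : ∀ x, ρ ((θ ^ (p ^ (s - 1))) x) = ρ x → IsSc ρ x)
    (T' : Module.End K W) (hT' : T' * T = T * T') :
    ∃ (l : K) (S : Module.End K W), T' = l • 1 + trX T Ti (p ^ s) S := by
  classical
  haveI : Fintype Q := Fintype.ofFinite Q
  obtain ⟨d, hd⟩ := fourier ρ hQK h
  set a : Q → K := fun x => LinearMap.trace K W (T' * ρ x⁻¹) with ha
  have hconj : ∀ x, ρ (θ x) = T * ρ x * Ti := by
    intro x
    rw [hTρ, mul_assoc, hTi, mul_one]
  have hconj' : ∀ x, ρ x = Ti * ρ (θ x) * T := by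
    intro x
    rw [mul_assoc, ← hTρ, ← mul_assoc, hiT, one_mul]
  have haθ : ∀ x, a (θ x) = a x := by
    intro x
    simp only [ha]
    rw [← map_inv, hconj, ← mul_assoc, ← mul_assoc, LinearMap.trace_mul_comm, ← mul_assoc, ← mul_assoc,
      mul_assoc Ti T' T, hT', ← mul_assoc, hiT, one_mul]
  have hpowT : ∀ j : ℕ, T ^ j * Ti ^ j = 1 := by
    intro j
    induction j with
    | zero => simp
    | succ j ih => rw [pow_succ, pow_succ', mul_assoc, ← mul_assoc T, hTi, one_mul, ih]
  let τ : Equiv.Perm Q := θ.toEquiv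
  have hτ1 : ∀ x, τ x = θ x := fun x => rfl
  have hτ : ∀ (j : ℕ) (x : Q), (τ ^ j) x = (θ ^ j) x := by
    intro j
    induction j with
    | zero => intro x; simp
    | succ j ih => intro x; rw [pow_succ', pow_succ', Equiv.Perm.mul_apply, MulAut.mul_apply, ih, hτ1]
  have hconjpow : ∀ (j : ℕ) (x : Q), ρ ((θ ^ j) x) = T ^ j * ρ x * Ti ^ j := by
    intro j
    induction j with
    | zero => intro x; simp
    | succ j ih =>
      intro x
      rw [pow_succ', MulAut.mul_apply, hconj, ih, pow_succ', pow_succ]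
      simp only [mul_assoc]
  have hapow : ∀ (j : ℕ) (x : Q), a ((θ ^ j) x) = a x := by
    intro j
    induction j with
    | zero => intro x; simp
    | succ j ih => intro x; rw [pow_succ', MulAut.mul_apply, haθ, ih]
  let D : Finset Q := Finset.univ.filter (fun x => ¬ IsSc ρ x)
  have hD : ∀ x ∈ D, τ x ∈ D := by
    intro x hx
    simp only [D, Finset.mem_filter, Finset.mem_univ, true_and] at hx ⊢
    intro hsc
    apply hx
    obtain ⟨l, hl⟩ := hsc
    refine ⟨l, ?_⟩
    rw [hconj' x, ← hτ1, hl, mul_smul_comm, mul_one, smul_mul_assoc, hiT]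
  have hNpos : 0 < p ^ s := pow_pos hp.pos s
  have hτN : τ ^ (p ^ s) = 1 := by
    ext x
    rw [hτ, hθP]; rfl
  have hfr : ∀ x ∈ D, ∀ j, 0 < j → j < p ^ s → (τ ^ j) x ≠ x := by
    intro x hx j hj0 hjN hfix
    simp only [D, Finset.mem_filter, Finset.mem_univ, true_and] at hx
    apply hx
    apply hfree
    have h1 : Function.IsPeriodicPt τ j x := by
      unfold Function.IsPeriodicPt Function.IsFixedPt
      rw [Equiv.Perm.iterate_eq_pow]; exact hfix
    have h2 : Function.IsPeriodicPt τ (p ^ s) x := by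
      unfold Function.IsPeriodicPt Function.IsFixedPt
      rw [Equiv.Perm.iterate_eq_pow, hτN]; rfl
    have h3 := h1.gcd h2
    obtain ⟨e, he, heq⟩ := (Nat.dvd_prime_pow hp).mp (Nat.gcd_dvd_right j (p ^ s))
    have hlt : p ^ e < p ^ s := by
      rw [← heq]; exact lt_of_le_of_lt (Nat.gcd_le_left _ hj0) hjN
    have hes : e < s := (Nat.pow_lt_pow_iff_right hp.one_lt).mp hlt
    have h4 : Function.IsPeriodicPt τ (p ^ (s - 1)) x := by
      apply h3.trans_dvd
      rw [heq]
      exact pow_dvd_pow p (by omega)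
    unfold Function.IsPeriodicPt Function.IsFixedPt at h4
    rw [Equiv.Perm.iterate_eq_pow, hτ] at h4
    rw [h4]
  obtain ⟨Rep, hRep⟩ := orb.{v} τ (p ^ s) hNpos hτN D hD hfr
  obtain ⟨l0, hl0⟩ : ∃ l0 : K, ∑ x ∈ Finset.univ.filter (fun x => ¬ ¬ IsSc ρ x), a x • ρ x
      = l0 • (1 : Module.End K W) := by
    apply Finset.sum_induction _ (fun S : Module.End K W => ∃ l0 : K, S = l0 • (1 : Module.End K W))
    · rintro _ _ ⟨l1, rfl⟩ ⟨l2, rfl⟩
      exact ⟨l1 + l2, by rw [add_smul]⟩
    · exact ⟨0, by rw [zero_smul]⟩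
    · intro x hx
      simp only [Finset.mem_filter, Finset.mem_univ, true_and, not_not] at hx
      obtain ⟨l, hl⟩ := hx
      exact ⟨a x * l, by rw [hl, smul_smul]⟩
  refine ⟨d * l0, d • ∑ x ∈ Rep, a x • ρ x, ?_⟩
  have h1 := hd T'
  rw [← Finset.sum_filter_add_sum_filter_not Finset.univ (fun x => ¬ IsSc ρ x), hl0] at h1
  have h2 : ∑ x ∈ Finset.univ.filter (fun x => ¬ IsSc ρ x), (LinearMap.trace K W (T' * ρ x⁻¹)) • ρ x
      = trX T Ti (p ^ s) (∑ x ∈ Rep, a x • ρ x) := by
    rw [trX_sum_smul]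
    have := hRep (fun x => a x • ρ x)
    rw [show (∑ x ∈ Finset.univ.filter (fun x => ¬ IsSc ρ x), (LinearMap.trace K W (T' * ρ x⁻¹)) • ρ x)
      = ∑ x ∈ D, a x • ρ x from rfl, this]
    refine Finset.sum_congr rfl (fun x _ => Finset.sum_congr rfl (fun j _ => ?_))
    rw [hτ, hapow, hconjpow]
  rw [h2, smul_add, smul_smul, ← trX_smul, add_comm] at h1
  exact h1

theorem sub_one_pow_char [Nontrivial W] (p : ℕ) [Fact p.Prime] [CharP K p] (T : Module.End K W) (s : ℕ) :
    (T - 1) ^ (p ^ s) = T ^ (p ^ s) - 1 := by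
  haveI : CharP (Module.End K W) p :=
    charP_of_injective_algebraMap (FaithfulSMul.algebraMap_injective K (Module.End K W)) p
  have := sub_pow_char_pow_of_commute (p := p) (n := s) (Commute.one_right T)
  simpa using this

theorem crit [FiniteDimensional K W] [Nontrivial W] [Finite Q] (p : ℕ) [hp : Fact p.Prime] [CharP K p]
    (ρ : Q →* Module.End K W) (hQK : (Nat.card Q : K) ≠ 0) (h : Sch ρ)
    (θ : MulAut Q) (T : Module.End K W) (s : ℕ) (hs : 0 < s) (hTP : T ^ (p ^ s) = 1)
    (hθP : θ ^ (p ^ s) = 1) (hTρ : ∀ x, T * ρ x = ρ (θ x) * T)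
    (hfree : ∀ x, ρ ((θ ^ (p ^ (s - 1))) x) = ρ x → IsSc ρ x)
    (hns : ∃ x, ¬ IsSc ρ x) :
    (T - 1) ^ (p ^ s - 2) ≠ 0 ∧ ((T - 1) ^ (p ^ s - 1) = 0 → finrank K W = p ^ s - 1) := by
  set N := p ^ s with hN
  have hN2 : 2 ≤ N := by
    calc 2 ≤ p := hp.out.two_le
      _ = p ^ 1 := (pow_one p).symm
      _ ≤ p ^ s := Nat.pow_le_pow_right hp.out.pos hs
  set Ti := T ^ (N - 1) with hTidef
  have hTi : T * Ti = 1 := by rw [hTidef, ← pow_succ', Nat.sub_add_cancel (by omega), hTP]
  have hiT : Ti * T = 1 := by rw [hTidef, ← pow_succ, Nat.sub_add_cancel (by omega), hTP]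
  set ν := T - 1 with hν
  have hνN : ν ^ N = 0 := by rw [hν, hN, sub_one_pow_char, ← hN, hTP, sub_self]
  have hdec := decomp ρ hQK h θ T Ti hTi hiT p s hp.out hs hθP hTρ hfree
  have hcomm : ∀ T' : Module.End K W, T' * ν = ν * T' → T' * T = T * T' := by
    intro T' h1
    have hT : T = ν + 1 := by rw [hν]; abel
    rw [hT, mul_add, add_mul, h1, mul_one, one_mul]
  have part1 : ν ^ (N - 2) ≠ 0 := by
    intro h0
    have h1 : ν ^ (N - 1) = 0 := by
      have : N - 1 = (N - 2) + 1 := by omega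
      rw [this, pow_succ, h0, zero_mul]
    obtain ⟨l, S, hl⟩ := hdec ν (hcomm ν rfl)
    have hk2 : ∀ v, ν (ν v) = 0 → ν v = 0 := by
      intro v hv
      have h2 := trX_ker_two p s hN2 T Ti hTi hiT S v hv
      rw [← hN, ← hν, h1, h0] at h2
      simp only [LinearMap.zero_apply, map_zero, add_zero] at h2
      have h3 : ν v = l • v := by
        conv_lhs => rw [hl]
        rw [LinearMap.add_apply, ← hN, h2, add_zero, LinearMap.smul_apply, Module.End.one_apply]
      by_cases hl0 : l = 0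
      · rw [h3, hl0, zero_smul]
      · have h4 : ν (ν v) = l • l • v := by rw [h3, map_smul, h3]
        rw [hv] at h4
        have h5 : v = 0 := by
          have := h4.symm
          rw [smul_smul, smul_eq_zero] at this
          rcases this with h6 | h6
          · exact absurd (mul_self_eq_zero.mp h6) hl0
          · exact h6
        rw [h5, map_zero]
    have hdown : ∀ k, ν ^ (k + 1) = 0 → ν = 0 := by
      intro k
      induction k with
      | zero => intro h2; simpa using h2
      | succ k ih =>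
        intro h2
        apply ih
        ext u
        have h3 : ν (ν ((ν ^ k) u)) = 0 := by
          have := LinearMap.congr_fun h2 u
          rw [pow_succ', pow_succ', Module.End.mul_apply, Module.End.mul_apply] at this
          simpa using this
        have := hk2 _ h3
        rw [pow_succ', Module.End.mul_apply, this]; rfl
    have hν0 : ν = 0 := hdown (N - 1) (by rw [Nat.sub_add_cancel (by omega)]; exact hνN)
    have hT1 : T = 1 := by rw [hν] at hν0; exact sub_eq_zero.mp hν0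
    have h2 : ∀ x, ρ (θ x) = ρ x := by
      intro x
      have := hTρ x
      rw [hT1, one_mul, mul_one] at this
      exact this.symm
    have h3 : ∀ (k : ℕ) (x : Q), ρ ((θ ^ k) x) = ρ x := by
      intro k
      induction k with
      | zero => intro x; simp
      | succ k ih => intro x; rw [pow_succ', MulAut.mul_apply, h2, ih]
    obtain ⟨x, hx⟩ := hns
    exact hx (hfree x (h3 _ x))
  refine ⟨part1, fun h1 => ?_⟩
  obtain ⟨r, hr⟩ : ∃ r, N - 2 = r := ⟨_, rfl⟩
  have hr1 : N - 1 = r + 1 := by omega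
  rw [hr] at part1
  rw [hr1] at h1 ⊢
  obtain ⟨w, hw⟩ : ∃ w, (ν ^ r) w ≠ 0 := by
    by_contra hcon
    push Not at hcon
    exact part1 (by ext u; simpa using hcon u)
  apply finrank_of_single_block ν r h1 w hw
  set u := (ν ^ r) w with hu
  have hνu : ν u = 0 := by
    rw [hu, ← Module.End.mul_apply, ← pow_succ', h1]; rfl
  obtain ⟨φ, hφ⟩ : ∃ φ : Module.Dual K W, φ u ≠ 0 := by
    by_contra hcon
    push Not at hcon
    exact hw ((Module.forall_dual_apply_eq_zero_iff K u).mp hcon)
  obtain ⟨T', hT'c, hT'⟩ := exists_comm_op ν r h1 φ w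
  obtain ⟨l, S, hl⟩ := hdec T' (hcomm T' hT'c)
  have key : ∀ v, ν v = 0 → φ v • u = l • v := by
    intro v hv
    have h2 := trX_ker_one p s T Ti hTi hiT S v hv
    rw [← hN, ← hν, hr1, h1] at h2
    rw [← hT' v hv]
    conv_lhs => rw [hl]
    rw [LinearMap.add_apply, ← hN, h2, LinearMap.zero_apply, add_zero, LinearMap.smul_apply,
      Module.End.one_apply]
  have hl0 : l ≠ 0 := by
    intro hl0
    have := key u hνu
    rw [hl0, zero_smul, smul_eq_zero] at this
    rcases this with h6 | h6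
    · exact hφ h6
    · exact hw h6
  intro v hv
  refine ⟨l⁻¹ * φ v, ?_⟩
  rw [mul_smul, key v hv, smul_smul, inv_mul_cancel₀ hl0, one_smul]

end Cfsg.Agent.Lib.Helper61.HH
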