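import Mathlib
import Cfsg.Agent.Lib.Helper61.HHDefs
import Cfsg.Agent.Lib.Helper4.HHCSchur

set_option autoImplicit false

namespace Cfsg.Agent.Lib.Helper61.HH

open Module Cfsg.Agent.Lib.Helper4.HHC

universe u v w

variable {K : Type u} [Field K] {W : Type v} [AddCommGroup W] [Module K W]
variable {Q : Type w} [Group Q]

theorem rho_inv_mul (ρ : Q →* Module.End K W) (g : Q) : ρ g⁻¹ * ρ g = 1 := by
  rw [← map_mul, inv_mul_cancel, map_one]

theorem rho_mul_inv (ρ : Q →* Module.End K W) (g : Q) : ρ g * ρ g⁻¹ = 1 := by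
  rw [← map_mul, mul_inv_cancel, map_one]

theorem smul_one_inj' [Nontrivial W] {l l' : K}
    (h : l • (1 : Module.End K W) = l' • (1 : Module.End K W)) : l = l' := by
  have h1 : (l - l') • (1 : Module.End K W) = 0 := by rw [sub_smul, h, sub_self]
  rcases smul_eq_zero.mp h1 with h2 | h2
  · exact sub_eq_zero.mp h2
  · exact absurd h2 one_ne_zero

/-- the subgroup of elements acting as scalars. -/
def scSub [Nontrivial W] (ρ : Q →* Module.End K W) : Subgroup Q where
  carrier := {x | IsSc ρ x}
  mul_mem' := by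
    rintro a b ⟨l, hl⟩ ⟨l', hl'⟩
    exact ⟨l * l', by rw [map_mul, hl, hl', smul_mul_smul_comm, one_mul]⟩
  one_mem' := ⟨1, by rw [map_one, one_smul]⟩
  inv_mem' := by
    rintro a ⟨l, hl⟩
    have h1 := rho_inv_mul ρ a
    rw [hl, mul_smul_comm, mul_one] at h1
    have hl0 : l ≠ 0 := by
      intro h0
      rw [h0, zero_smul] at h1
      exact zero_ne_one h1
    refine ⟨l⁻¹, ?_⟩
    rw [← h1, smul_smul, inv_mul_cancel₀ hl0, one_smul]

theorem mem_scSub [Nontrivial W] (ρ : Q →* Module.End K W) (x : Q) : x ∈ scSub ρ ↔ IsSc ρ x := Iff.rfl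

instance scSub_normal [Nontrivial W] (ρ : Q →* Module.End K W) : (scSub ρ).Normal := by
  constructor
  rintro a ⟨l, hl⟩ g
  refine ⟨l, ?_⟩
  rw [map_mul, map_mul, hl, mul_smul_comm, mul_one, smul_mul_assoc, rho_mul_inv]

/-- restriction of a representation to a subgroup and an invariant subspace. -/
def resSub (ρ : Q →* Module.End K W) (M : Subgroup Q) (E : Submodule K W)
    (h : ∀ g ∈ M, ∀ y ∈ E, ρ g y ∈ E) : M →* Module.End K E where
  toFun g := (ρ g).restrict (h g g.2)
  map_one' := by ext; simp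
  map_mul' := by intro a b; ext; simp

theorem resSub_apply (ρ : Q →* Module.End K W) (M : Subgroup Q) (E : Submodule K W)
    (h : ∀ g ∈ M, ∀ y ∈ E, ρ g y ∈ E) (g : M) (y : E) : ((resSub ρ M E h g y : E) : W) = ρ g y := rfl

theorem dimq [IsAlgClosed K] (q : ℕ) [hq : Fact q.Prime] (hqK : (q : K) ≠ 0) (c : ℕ) :
    ∀ (Q : Type w) [Group Q] [Finite Q], Nat.card Q = c → IsPGroup q Q →
    ∀ (W : Type v) [AddCommGroup W] [Module K W] [FiniteDimensional K W] [Nontrivial W]
      (ρ : Q →* Module.End K W), Irr ρ → ∃ b : ℕ, finrank K W = q ^ b := by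
  induction c using Nat.strong_induction_on with
  | _ c ih =>
  intro Q _ _ hc hQ W _ _ _ _ ρ hirr
  classical
  have hSch : Sch ρ := sch_of_irr ρ hirr
  by_cases htop : scSub ρ = ⊤
  · -- all scalars
    obtain ⟨v, hv⟩ := exists_ne (0 : W)
    have h1 : (K ∙ v) = ⊤ := by
      have hinv : ∀ g, ∀ y ∈ (K ∙ v), ρ g y ∈ (K ∙ v) := by
        intro g y hy
        obtain ⟨l, hl⟩ : IsSc ρ g := by
          rw [← mem_scSub, htop]; exact Subgroup.mem_top g
        rw [hl]
        simpa using Submodule.smul_mem _ l hy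
      rcases hirr (K ∙ v) hinv with h | h
      · exact absurd ((Submodule.span_singleton_eq_bot).mp h) hv
      · exact h
    refine ⟨0, ?_⟩
    rw [pow_zero, ← finrank_top, ← h1]
    exact finrank_span_singleton hv
  -- a non-scalar element, central modulo scalars
  haveI : Nontrivial (Q ⧸ scSub ρ) := by
    rw [QuotientGroup.nontrivial_iff]; exact htop
  haveI : Nontrivial (Subgroup.center (Q ⧸ scSub ρ)) := (hQ.to_quotient (scSub ρ)).center_nontrivial
  obtain ⟨⟨abar, habar⟩, hne⟩ := exists_ne (1 : Subgroup.center (Q ⧸ scSub ρ))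
  obtain ⟨a, rfl⟩ := QuotientGroup.mk_surjective abar
  have haSc : ¬ IsSc ρ a := by
    intro h
    apply hne
    apply Subtype.ext
    exact (QuotientGroup.eq_one_iff a).mpr h
  set A : Module.End K W := ρ a with hA
  have hz : ∀ g, ∃ l : K, A * ρ g = l • (ρ g * A) := by
    intro g
    have h1 : ((a * g * a⁻¹ * g⁻¹ : Q) : Q ⧸ scSub ρ) = 1 := by
      have h2 := Subgroup.mem_center_iff.mp habar (g : Q ⧸ scSub ρ)
      simp only [QuotientGroup.mk_mul, QuotientGroup.mk_inv]
      rw [← h2]; group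
    obtain ⟨l, hl⟩ : IsSc ρ (a * g * a⁻¹ * g⁻¹) := (QuotientGroup.eq_one_iff _).mp h1
    refine ⟨l, ?_⟩
    have h3 : a * g = (a * g * a⁻¹ * g⁻¹) * (g * a) := by group
    rw [hA, ← map_mul, h3, map_mul, hl, map_mul, smul_mul_assoc, one_mul]
  choose z hz using hz
  have huniq : ∀ (g : Q) (l l' : K), l • (ρ g * A) = l' • (ρ g * A) → l = l' := by
    intro g l l' h
    apply smul_one_inj' (W := W)
    have h1 := congrArg (fun t => t * (ρ a⁻¹ * ρ g⁻¹)) h
    have e : ρ g * A * (ρ a⁻¹ * ρ g⁻¹) = 1 := by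
      rw [hA, mul_assoc, ← mul_assoc (ρ a), rho_mul_inv, one_mul, rho_mul_inv]
    simpa only [smul_mul_assoc, e] using h1
  let ζ0 : Q →* K :=
    { toFun := z
      map_one' := by
        apply huniq 1
        rw [← hz 1, map_one, one_smul, mul_one, one_mul]
      map_mul' := by
        intro g h
        apply huniq (g * h)
        rw [← hz (g * h), map_mul, ← mul_assoc, hz g, smul_mul_assoc, mul_assoc, hz h, mul_smul_comm,
          smul_smul, mul_assoc] }
  let ζ : Q →* Kˣ := ζ0.toHomUnits
  have hζ : ∀ g, ((ζ g : Kˣ) : K) = z g := fun g => rfl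
  set M0 : Subgroup Q := ζ.ker with hM0
  have hM0mem : ∀ g, g ∈ M0 ↔ z g = 1 := by
    intro g
    rw [hM0, MonoidHom.mem_ker, Units.ext_iff, hζ, Units.val_one]
  have hM0top : M0 ≠ ⊤ := by
    intro h
    apply haSc
    apply hSch
    intro g
    have h1 : z g = 1 := (hM0mem g).mp (by rw [h]; trivial)
    rw [← hA, hz g, h1, one_smul]
  obtain ⟨μ, hμ⟩ := Module.End.exists_eigenvalue A
  have hμ0 : μ ≠ 0 := by
    intro h0
    obtain ⟨v, hv⟩ := hμ.exists_hasEigenvector
    have h1 : A v = 0 := by rw [hv.apply_eq_smul, h0, zero_smul]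
    have h2 : v = 0 := by
      have := congrArg (ρ a⁻¹) h1
      rw [map_zero, hA, ← Module.End.mul_apply, rho_inv_mul] at this
      simpa using this
    exact hv.2 h2
  -- the family of eigenspaces
  let ev : Q ⧸ M0 → K := fun i => ((QuotientGroup.kerLift ζ i : Kˣ) : K) * μ
  have hev_mk : ∀ g : Q, ev (g : Q ⧸ M0) = z g * μ := fun g => rfl
  have hev_inj : Function.Injective ev := by
    intro i j hij
    have h1 : ((QuotientGroup.kerLift ζ i : Kˣ) : K) = (QuotientGroup.kerLift ζ j : Kˣ) :=
      mul_right_cancel₀ hμ0 hij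
    exact QuotientGroup.kerLift_injective ζ (Units.ext h1)
  let F : Q ⧸ M0 → Submodule K W := fun i => A.eigenspace (ev i)
  have hFind : iSupIndep F := (Module.End.eigenspaces_iSupIndep A).comp hev_inj
  have hmapF : ∀ (g : Q) (l : K) (v : W), v ∈ A.eigenspace l → ρ g v ∈ A.eigenspace (z g * l) := by
    intro g l v hv
    rw [Module.End.mem_eigenspace_iff] at hv ⊢
    rw [← Module.End.mul_apply, hz g, LinearMap.smul_apply, Module.End.mul_apply, hv, map_smul, smul_smul]
  have hmapF' : ∀ (g h : Q) (v : W), v ∈ F (h : Q ⧸ M0) → ρ g v ∈ F ((g * h : Q) : Q ⧸ M0) := by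
    intro g h v hv
    have := hmapF g _ v hv
    have e : z g * ev (h : Q ⧸ M0) = ev ((g * h : Q) : Q ⧸ M0) := by
      rw [hev_mk, hev_mk, ← mul_assoc]
      congr 1
      exact (map_mul ζ0 g h).symm
    rw [e] at this
    exact this
  set E : Submodule K W := A.eigenspace μ with hE
  have hF1 : F ((1 : Q) : Q ⧸ M0) = E := by
    simp only [F]
    rw [hev_mk, show z 1 = 1 from map_one ζ0, one_mul]
  have hEbot : E ≠ ⊥ := hμ
  have hsup : ⨆ i, F i = ⊤ := by
    have hinv : ∀ g, ∀ y ∈ (⨆ i, F i), ρ g y ∈ (⨆ i, F i) := by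
      intro g y hy
      induction hy using Submodule.iSup_induction' with
      | mem i x hx =>
        obtain ⟨h, rfl⟩ := QuotientGroup.mk_surjective i
        exact Submodule.mem_iSup_of_mem _ (hmapF' g h x hx)
      | zero => rw [map_zero]; exact Submodule.zero_mem _
      | add x y _ _ hx hy => rw [map_add]; exact Submodule.add_mem _ hx hy
    rcases hirr (⨆ i, F i) hinv with h | h
    · exfalso
      apply hEbot
      rw [eq_bot_iff, ← h, ← hF1]
      exact le_iSup F _
    · exact h
  have hfinF : ∀ i, finrank K (F i) = finrank K E := by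
    intro i
    obtain ⟨g, rfl⟩ := QuotientGroup.mk_surjective i
    apply le_antisymm
    · have hm : ∀ x ∈ F (g : Q ⧸ M0), ρ g⁻¹ x ∈ E := by
        intro x hx
        have := hmapF' g⁻¹ g x hx
        rwa [inv_mul_cancel, hF1] at this
      apply LinearMap.finrank_le_finrank_of_injective (f := (ρ g⁻¹).restrict hm)
      intro x y hxy
      have h1 : ρ g⁻¹ (x : W) = ρ g⁻¹ (y : W) := congrArg Subtype.val hxy
      have h2 := congrArg (ρ g) h1
      rw [← Module.End.mul_apply, ← Module.End.mul_apply, rho_mul_inv] at h2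
      exact Subtype.ext h2
    · have hm : ∀ x ∈ E, ρ g x ∈ F (g : Q ⧸ M0) := by
        intro x hx
        rw [← hF1] at hx
        have := hmapF' g 1 x hx
        rwa [mul_one] at this
      apply LinearMap.finrank_le_finrank_of_injective (f := (ρ g).restrict hm)
      intro x y hxy
      have h1 : ρ g (x : W) = ρ g (y : W) := congrArg Subtype.val hxy
      have h2 := congrArg (ρ g⁻¹) h1
      rw [← Module.End.mul_apply, ← Module.End.mul_apply, rho_inv_mul] at h2
      exact Subtype.ext h2
  haveI : Fintype (Q ⧸ M0) := Fintype.ofFinite _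
  have hdim : finrank K W = M0.index * finrank K E := by
    have hint := DirectSum.isInternal_submodule_of_iSupIndep_of_iSup_eq_top hFind hsup
    have e := LinearEquiv.ofBijective (DirectSum.coeLinearMap F) hint
    rw [← e.finrank_eq, Module.finrank_directSum]
    simp only [hfinF]
    rw [Finset.sum_const, Finset.card_univ, smul_eq_mul, Subgroup.index_eq_card, Nat.card_eq_fintype_card]
  -- `E` is irreducible under `M0`
  have hinvE : ∀ g ∈ M0, ∀ y ∈ E, ρ g y ∈ E := by
    intro g hg y hy
    have := hmapF g μ y hy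
    rwa [(hM0mem g).mp hg, one_mul] at this
  have hirrE : Irr (resSub ρ M0 E hinvE) := by
    intro U' hU'
    by_cases hbot : U' = ⊥
    · exact Or.inl hbot
    right
    set U : Submodule K W := U'.map E.subtype with hU
    have hUE : U ≤ E := Submodule.map_subtype_le E U'
    have hUbot : U ≠ ⊥ := by
      intro h
      apply hbot
      rw [hU] at h
      apply Submodule.map_injective_of_injective E.injective_subtype
      rw [h, Submodule.map_bot]
    have hUinv : ∀ g ∈ M0, ∀ y ∈ U, ρ g y ∈ U := by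
      rintro g hg _ ⟨y, hy, rfl⟩
      exact ⟨resSub ρ M0 E hinvE ⟨g, hg⟩ y, hU' ⟨g, hg⟩ y hy, rfl⟩
    set R : Submodule K W := ⨆ (j : Q ⧸ M0) (_ : j ≠ ((1 : Q) : Q ⧸ M0)), F j with hR
    have hS : (⨆ g : Q, U.map (ρ g)) = ⊤ := by
      have hinv : ∀ g, ∀ y ∈ (⨆ g : Q, U.map (ρ g)), ρ g y ∈ (⨆ g : Q, U.map (ρ g)) := by
        intro g y hy
        induction hy using Submodule.iSup_induction' with
        | mem i x hx =>
          obtain ⟨x', hx', rfl⟩ := hx
          refine Submodule.mem_iSup_of_mem (g * i) ⟨x', hx', ?_⟩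
          rw [map_mul]; rfl
        | zero => rw [map_zero]; exact Submodule.zero_mem _
        | add x y _ _ hx hy => rw [map_add]; exact Submodule.add_mem _ hx hy
      rcases hirr (⨆ g : Q, U.map (ρ g)) hinv with h | h
      · exfalso
        apply hUbot
        rw [eq_bot_iff, ← h]
        refine le_trans ?_ (le_iSup (fun g : Q => U.map (ρ g)) 1)
        rw [map_one]
        intro y hy
        exact ⟨y, hy, rfl⟩
      · exact h
    have hle : (⨆ g : Q, U.map (ρ g)) ≤ U ⊔ R := by
      apply iSup_le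
      intro g
      by_cases hg : g ∈ M0
      · refine le_trans ?_ le_sup_left
        rintro _ ⟨y, hy, rfl⟩
        exact hUinv g hg y hy
      · refine le_trans ?_ le_sup_right
        rintro _ ⟨y, hy, rfl⟩
        have hne1 : (g : Q ⧸ M0) ≠ ((1 : Q) : Q ⧸ M0) := by
          intro h
          apply hg
          exact (QuotientGroup.eq_one_iff g).mp h
        have hy' : y ∈ F ((1 : Q) : Q ⧸ M0) := by rw [hF1]; exact hUE hy
        have := hmapF' g 1 y hy'
        rw [mul_one] at this
        exact Submodule.mem_iSup_of_mem _ (Submodule.mem_iSup_of_mem hne1 this)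
    have htopUR : U ⊔ R = ⊤ := by rw [eq_top_iff, ← hS]; exact hle
    have hdisj : R ⊓ E = ⊥ := by
      have := hFind ((1 : Q) : Q ⧸ M0)
      rw [hF1] at this
      rw [inf_comm]
      exact this.eq_bot
    have hUeq : U = E := by
      have h1 := sup_inf_assoc_of_le R hUE
      rw [htopUR, top_inf_eq, hdisj, sup_bot_eq] at h1
      exact h1.symm
    apply Submodule.map_injective_of_injective E.injective_subtype
    rw [← hU, hUeq, Submodule.map_subtype_top]
  haveI : Nontrivial E := (Submodule.nontrivial_iff_ne_bot).mpr hEbot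
  have hidx : M0.index ≠ 1 := fun h => hM0top (Subgroup.index_eq_one.mp h)
  have hidx0 : M0.index ≠ 0 := Subgroup.index_ne_zero_of_finite
  have hcm := Subgroup.card_mul_index M0
  have hcardpos : 0 < Nat.card M0 := Nat.card_pos
  have hlt : Nat.card M0 < c := by
    rw [← hc, ← hcm]
    have : 2 ≤ M0.index := by omega
    nlinarith
  obtain ⟨b', hb'⟩ := ih _ hlt M0 rfl (hQ.to_subgroup M0) E (resSub ρ M0 E hinvE) hirrE
  obtain ⟨n, hn⟩ := (IsPGroup.iff_card).mp hQ
  obtain ⟨k, _, hk⟩ := (Nat.dvd_prime_pow hq.out).mp (hn ▸ Subgroup.index_dvd_card M0)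
  exact ⟨k + b', by rw [hdim, hk, hb', pow_add]⟩

end Cfsg.Agent.Lib.Helper61.HH
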