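import Mathlib
import Cfsg.Agent.Lib.Helper12.HHB.Defs
import Cfsg.Agent.Lib.Helper61.HHDefs
import Cfsg.Agent.Lib.Helper61.HHCrit
import Cfsg.Agent.Lib.Helper61.HHDimq
import Cfsg.Agent.Lib.Helper4.HHCSchur

set_option autoImplicit false

namespace Cfsg.Agent.Lib.Helper61.HH

open Module Cfsg.Agent.Lib.Helper12.HHB Cfsg.Agent.Lib.Helper4.HHC

universe u v w


variable {K : Type u} [Field K] {V : Type v} [AddCommGroup V] [Module K V]

theorem crit_units {p q : ℕ} [hp : Fact p.Prime] [hq : Fact q.Prime] [CharP K p] [IsAlgClosed K]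
    [FiniteDimensional K V] [Nontrivial V] (hpq : p ≠ q) (Q : Subgroup (Module.End K V)ˣ) [Finite Q]
    (hQ : IsPGroup q Q) (hC : ScalarComm Q) (X : (Module.End K V)ˣ)
    (hnorm : ∀ g ∈ Q, X * g * X⁻¹ ∈ Q) (m : ℕ) (hord : X ^ p ^ (m + 1) = 1)
    (hreg : ∀ g ∈ Q, X ^ p ^ m * g = g * X ^ p ^ m → ∃ c : K, (g : Module.End K V) = c • 1)
    (hns : ∃ g ∈ Q, ¬ ∃ c : K, (g : Module.End K V) = c • 1) (s : ℕ)
    (hs : IsIdx ((X : Module.End K V) - 1) s) :
    p ^ (m + 1) - 1 ≤ s ∧ (s = p ^ (m + 1) - 1 → ∃ b, 1 ≤ b ∧ p ^ (m + 1) - 1 = q ^ b) := by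
  let ρ : Q →* Module.End K V := (Units.coeHom (Module.End K V)).comp Q.subtype
  have hρ : ∀ g : Q, ρ g = ((g : (Module.End K V)ˣ) : Module.End K V) := fun g => rfl
  have hSch : Sch ρ := by
    intro S hS
    exact hC S (fun g hg => hS ⟨g, hg⟩)
  let f : Q →* Q :=
    { toFun := fun g => ⟨X * g * X⁻¹, hnorm g g.2⟩
      map_one' := by ext1; simp
      map_mul' := by intro a b; ext1; simp [mul_assoc] }
  have hfinj : Function.Injective f := by
    intro a b hab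
    have h1 : X * (a : (Module.End K V)ˣ) * X⁻¹ = X * b * X⁻¹ := congrArg Subtype.val hab
    exact Subtype.ext (mul_left_cancel (mul_right_cancel h1))
  let θ : MulAut Q := MulEquiv.ofBijective f ⟨hfinj, Finite.surjective_of_injective hfinj⟩
  have hθ1 : ∀ g : Q, ((θ g : Q) : (Module.End K V)ˣ) = X * g * X⁻¹ := fun g => rfl
  have hθpow : ∀ (j : ℕ) (g : Q), (((θ ^ j) g : Q) : (Module.End K V)ˣ) = X ^ j * g * (X ^ j)⁻¹ := by
    intro j
    induction j with
    | zero => intro g; simp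
    | succ j ih =>
      intro g
      rw [pow_succ', MulAut.mul_apply, hθ1, ih, pow_succ']
      group
  have hqK : (q : K) ≠ 0 := by
    intro h0
    have := (CharP.cast_eq_zero_iff K p q).mp h0
    exact hpq ((Nat.prime_dvd_prime_iff_eq hp.out hq.out).mp this)
  have hQK : (Nat.card Q : K) ≠ 0 := by
    obtain ⟨e, he⟩ := (IsPGroup.iff_card).mp hQ
    rw [he]; push_cast; exact pow_ne_zero _ hqK
  have hTP : (X : Module.End K V) ^ (p ^ (m + 1)) = 1 := by
    rw [← Units.val_pow_eq_pow_val, hord, Units.val_one]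
  have hθP : θ ^ (p ^ (m + 1)) = 1 := by
    ext g
    rw [hθpow, hord]; simp
  have hTρ : ∀ g, (X : Module.End K V) * ρ g = ρ (θ g) * (X : Module.End K V) := by
    intro g
    rw [hρ, hρ, hθ1, ← Units.val_mul, ← Units.val_mul]
    congr 1
    group
  have hfree : ∀ g, ρ ((θ ^ (p ^ (m + 1 - 1))) g) = ρ g → IsSc ρ g := by
    intro g hg
    rw [hρ, hρ, hθpow, Nat.add_sub_cancel] at hg
    have h1 := Units.ext hg
    apply hreg g g.2
    calc X ^ p ^ m * (g : (Module.End K V)ˣ) = (X ^ p ^ m * g * (X ^ p ^ m)⁻¹) * X ^ p ^ m := by group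
      _ = g * X ^ p ^ m := by rw [h1]
  have hns' : ∃ g, ¬ IsSc ρ g := by
    obtain ⟨g, hg, hg2⟩ := hns
    exact ⟨⟨g, hg⟩, hg2⟩
  obtain ⟨c1, c2⟩ := crit p ρ hQK hSch θ (X : Module.End K V) (m + 1) (Nat.succ_pos m) hTP hθP hTρ hfree hns'
  refine ⟨?_, ?_⟩
  · by_contra hcon
    apply c1
    have : p ^ (m + 1) - 2 = s + (p ^ (m + 1) - 2 - s) := by omega
    rw [this, pow_add, hs.1, zero_mul]
  · intro hs1
    have h0 := hs.1
    rw [hs1] at h0
    have hfin := c2 h0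
    obtain ⟨b, hb⟩ := dimq q hqK _ Q rfl hQ V ρ (irr_of_sch ρ hQK hSch)
    refine ⟨b, ?_, by rw [← hfin, hb]⟩
    by_contra hb0
    have hb0' : b = 0 := by omega
    rw [hb0', pow_zero] at hb
    rw [← hfin, hb, pow_one] at h0
    have hX1 : X = 1 := Units.ext (by rw [Units.val_one]; exact sub_eq_zero.mp h0)
    obtain ⟨g, hg, hg2⟩ := hns
    exact hg2 (hreg g hg (by rw [hX1]; simp))

end Cfsg.Agent.Lib.Helper61.HH
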