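import Mathlib
import Cfsg.Prelude.Def_SolvableStructure

/-! Ladder CSN (S0569): a family `K` "reduces into" a subgroup `C`. -/

set_option autoImplicit false

namespace Cfsg.Agent.Lib.Helper61.CSN

/-- `K` reduces into `C`: for every prime `p`, every element of `C` of order prime to `p`
lies in `K p`. -/
def Red {G : Type*} [Group G] (K : Nat.Primes → Subgroup G) (C : Subgroup G) : Prop :=
  ∀ p : Nat.Primes, ∀ x ∈ C, (orderOf x).Coprime (p : ℕ) → x ∈ K p

end Cfsg.Agent.Lib.Helper61.CSN
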