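import Mathlib
import Cfsg.Prelude.Def_SolvableStructure
import Cfsg.Agent.Lib.Helper61.CSNDefs
import Cfsg.Agent.Lib.Helper2.Carter
import Cfsg.Agent.Lib.Helper13.Carter
import Cfsg.Agent.Lib.Helper12.Card
import Cfsg.Agent.Lib.Helper12.ComplSys

set_option autoImplicit false
open Cfsg Cfsg.Agent.Lib.Helper61.CSN
open scoped Pointwise

namespace Cfsg.Agent.Lib.Helper61.CSN

/-- the `p`-complement of a nilpotent `C` lies in `Kp`. -/
theorem exists_pc_le {G : Type*} [Group G] [Finite G] (p : ℕ) [Fact p.Prime] (Kp C : Subgroup G)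
    (hC : Group.IsNilpotent C) (h : ∀ x ∈ C, (orderOf x).Coprime p → x ∈ Kp) :
    ∃ Q1 : Subgroup G, Q1 ≤ C ∧ Q1 ≤ Kp ∧ C ≤ Subgroup.normalizer (Q1 : Set G) ∧
      (Nat.card Q1).Coprime p ∧ ∃ k, Nat.card C = p ^ k * Nat.card Q1 := by
  obtain ⟨Q1, h1, h2, h3, h4⟩ := Cfsg.Agent.Lib.Helper2.exists_pcomplement_of_isNilpotent p C hC
  refine ⟨Q1, h1, ?_, h2, h3, h4⟩
  intro x hx
  refine h x (h1 hx) ?_
  have : orderOf x ∣ Nat.card Q1 := by
    have := orderOf_dvd_natCard (⟨x, hx⟩ : Q1)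
    rwa [← Subgroup.orderOf_coe] at this
  exact Nat.Coprime.coprime_dvd_left this h3

/-- numeric ending: `X ≤ Kp`, `X ≤ H`, and `card H * t = p^k * card X` -/
theorem relIndex_pow_of_card {G : Type*} [Group G] [Finite G] (p : ℕ) [Fact p.Prime]
    (Kp X H : Subgroup G) (hXK : X ≤ Kp) (hXH : X ≤ H) (t k : ℕ)
    (hc : Nat.card H * t = p ^ k * Nat.card X) : ∃ j : ℕ, Kp.relIndex H = p ^ j := by
  have h1 : X.relIndex H * Nat.card X = Nat.card H := Cfsg.Agent.Lib.Helper12.relIndex_mul_card' hXH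
  have h2 : X.relIndex H * t = p ^ k := by
    have hpos : 0 < Nat.card X := Nat.card_pos
    apply Nat.eq_of_mul_eq_mul_right hpos
    rw [← hc, ← h1]; ring
  have h3 : Kp.relIndex H ∣ p ^ k :=
    (Subgroup.relIndex_dvd_of_le_left H hXK).trans (Dvd.intro _ h2)
  obtain ⟨j, _, hj⟩ := (Nat.dvd_prime_pow (Fact.out : p.Prime)).mp h3
  exact ⟨j, hj⟩

/-- CSH1 -/
theorem csh1 {G : Type*} [Group G] [Finite G] (p : ℕ) [Fact p.Prime] (Kp C N : Subgroup G)
    [N.Normal] (hC : Group.IsNilpotent C) (_hN : (Nat.card N).Coprime p) (hNK : N ≤ Kp)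
    (h : ∀ x ∈ C, (orderOf x).Coprime p → x ∈ Kp) :
    ∃ j : ℕ, Kp.relIndex (C ⊔ N) = p ^ j := by
  obtain ⟨Q1, hQC, hQK, _, _, k, hk⟩ := exists_pc_le p Kp C hC h
  have e1 := Cfsg.Agent.Lib.Helper12.card_sup_mul_card_inf C N
  have e2 := Cfsg.Agent.Lib.Helper12.card_sup_mul_card_inf Q1 N
  have hle : Q1 ⊓ N ≤ C ⊓ N := inf_le_inf_right N hQC
  have e3 : (Q1 ⊓ N).relIndex (C ⊓ N) * Nat.card (Q1 ⊓ N : Subgroup G) =
      Nat.card (C ⊓ N : Subgroup G) := Cfsg.Agent.Lib.Helper12.relIndex_mul_card' hle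
  refine relIndex_pow_of_card p Kp (Q1 ⊔ N) (C ⊔ N) (sup_le hQK hNK)
    (sup_le_sup_right hQC N) ((Q1 ⊓ N).relIndex (C ⊓ N)) k ?_
  have hpos : 0 < Nat.card (Q1 ⊓ N : Subgroup G) := Nat.card_pos
  apply Nat.eq_of_mul_eq_mul_right hpos
  calc Nat.card (C ⊔ N : Subgroup G) * (Q1 ⊓ N).relIndex (C ⊓ N) * Nat.card (Q1 ⊓ N : Subgroup G)
      = Nat.card (C ⊔ N : Subgroup G) * Nat.card (C ⊓ N : Subgroup G) := by rw [mul_assoc, e3]
    _ = p ^ k * (Nat.card Q1 * Nat.card N) := by rw [e1, hk]; ring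
    _ = p ^ k * Nat.card (Q1 ⊔ N : Subgroup G) * Nat.card (Q1 ⊓ N : Subgroup G) := by
        rw [← e2]; ring

/-- CSH2 -/
theorem csh2 {G : Type*} [Group G] [Finite G] (p : ℕ) [Fact p.Prime] (Kp C N : Subgroup G)
    [N.Normal] (hC : Group.IsNilpotent C) (hN : IsPGroup p N)
    (h : ∀ x ∈ C, (orderOf x).Coprime p → x ∈ Kp) :
    ∃ j : ℕ, Kp.relIndex (C ⊔ N) = p ^ j := by
  obtain ⟨Q1, hQC, hQK, _, _, k, hk⟩ := exists_pc_le p Kp C hC h
  have e1 := Cfsg.Agent.Lib.Helper12.card_sup_mul_card_inf C N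
  obtain ⟨a, ha⟩ := IsPGroup.iff_card.mp hN
  refine relIndex_pow_of_card p Kp Q1 (C ⊔ N) hQK (hQC.trans le_sup_left)
    (Nat.card (C ⊓ N : Subgroup G)) (k + a) ?_
  rw [e1, hk, ha]; ring

/-- CSH -/
theorem csh {G : Type*} [Group G] [Finite G] (K : Nat.Primes → Subgroup G)
    (hK : IsComplementSystem K) (C N : Subgroup G) [N.Normal] (hC : Group.IsNilpotent C)
    (q : ℕ) [Fact q.Prime] (hN : IsPGroup q N) (h : Red K C) :
    IsComplementSystem (fun p => (K p).subgroupOf (C ⊔ N)) := by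
  intro p
  have hp : (p : ℕ).Prime := p.2
  have : Fact (p : ℕ).Prime := ⟨hp⟩
  have hj : ∃ j : ℕ, (K p).relIndex (C ⊔ N) = (p : ℕ) ^ j := by
    by_cases hpq : (p : ℕ) = q
    · exact csh2 p (K p) C N hC (hpq ▸ hN) (h p)
    · obtain ⟨a, ha⟩ := IsPGroup.iff_card.mp hN
      have hcop : (Nat.card N).Coprime p := by
        rw [ha]
        exact Nat.Coprime.pow_left _ ((Nat.coprime_primes Fact.out hp).mpr (Ne.symm hpq))
      have hNK : N ≤ K p :=
        Cfsg.Agent.Lib.Helper13.le_of_coprime_of_le_normalizer (K p) N p _ (hK p) hcop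
          (Or.inr inferInstance)
      exact csh1 p (K p) C N hC hcop hNK (h p)
  obtain ⟨j, hj⟩ := hj
  refine Cfsg.Agent.Lib.Helper13.index_eq_pow_factorization _ p hp ?_ j hj
  have h1 : Nat.card ((K p).subgroupOf (C ⊔ N)) ∣ Nat.card (K p) := by
    rw [← Subgroup.card_map_of_injective (Subgroup.subtype_injective (C ⊔ N)),
      Subgroup.subgroupOf_map_subtype]
    exact Subgroup.card_dvd_of_le inf_le_left
  exact Nat.Coprime.coprime_dvd_left h1
    ((Nat.Prime.coprime_iff_not_dvd hp).mpr (Cfsg.Agent.Lib.Helper12.cs_not_dvd_card hK p)).symm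

end Cfsg.Agent.Lib.Helper61.CSN
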