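import Mathlib
import Cfsg.Prelude.Def_SolvableStructure
import Cfsg.Agent.Lib.Helper61.CSNDefs
import Cfsg.Agent.Lib.Helper13.Carter
import Cfsg.Agent.S0005

set_option autoImplicit false
open Cfsg Cfsg.Agent.Lib.Helper61.CSN
open scoped Pointwise

namespace Cfsg.Agent.Lib.Helper61.CSN

/-- REDH -/
theorem redh {G : Type*} [Group G] (K : Nat.Primes → Subgroup G) (C H : Subgroup G)
    (h : Red K C) : Red (fun p => (K p).subgroupOf H) (C.subgroupOf H) := by
  intro p x hx ho
  rw [Subgroup.mem_subgroupOf] at hx ⊢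
  exact h p _ hx (by rwa [Subgroup.orderOf_coe])

/-- REDC -/
theorem redc {G : Type*} [Group G] (K L : Nat.Primes → Subgroup G) (C : Subgroup G) (g : G)
    (hg : ∀ p, MulAut.conj g • K p = L p) (h : Red K C) : Red L (MulAut.conj g • C) := by
  intro p x hx ho
  rw [← hg p]
  rw [Subgroup.mem_pointwise_smul_iff_inv_smul_mem] at hx ⊢
  refine h p _ hx ?_
  have : orderOf ((MulAut.conj g)⁻¹ • x) = orderOf x := by
    have := orderOf_injective ((MulAut.conj g)⁻¹ : MulAut G).toMonoidHom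
      ((MulAut.conj g)⁻¹ : MulAut G).injective x
    simpa using this
  rwa [this]

/-- REDQ -/
theorem redq {G : Type*} [Group G] [Finite G] (K : Nat.Primes → Subgroup G) (C N : Subgroup G)
    [N.Normal] (h : Red K C) :
    Red (fun p => (K p).map (QuotientGroup.mk' N)) (C.map (QuotientGroup.mk' N)) := by
  intro p xb hxb ho
  obtain ⟨x, hx, rfl⟩ := hxb
  have hp : (p : ℕ).Prime := p.2
  have hpos : orderOf x ≠ 0 := (orderOf_pos x).ne'
  obtain ⟨a, m, hm, hxo⟩ := Nat.exists_eq_pow_mul_and_not_dvd hpos (p : ℕ) hp.ne_one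
  have hcop : ((p : ℕ) ^ a).Coprime (orderOf (QuotientGroup.mk' N x)) :=
    (Nat.Coprime.pow_right a ho).symm
  obtain ⟨t, ht⟩ := exists_pow_eq_self_of_coprime hcop
  refine ⟨x ^ ((p : ℕ) ^ a * t), h p _ (C.pow_mem hx _) ?_, ?_⟩
  · have h1 : orderOf (x ^ ((p : ℕ) ^ a * t)) ∣ m := by
      apply orderOf_dvd_of_pow_eq_one
      rw [← pow_mul, mul_right_comm, ← hxo, pow_mul, pow_orderOf_eq_one, one_pow]
    exact Nat.Coprime.coprime_dvd_left h1 ((Nat.Prime.coprime_iff_not_dvd hp).mpr hm).symm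
  · rw [map_pow, pow_mul]; exact ht

/-- EXT -/
theorem ext {G : Type*} [Group G] [Finite G] [Group.IsSolvable G] (C : Subgroup G)
    (hC : Group.IsNilpotent C) : ∃ K : Nat.Primes → Subgroup G, IsComplementSystem K ∧ Red K C := by
  have key : ∀ p : Nat.Primes, ∃ H : Subgroup G,
      H.index = (p : ℕ) ^ (Nat.card G).factorization p ∧ Cfsg.Agent.Lib.Helper13.pcPart C p ≤ H := by
    intro p
    haveI : Fact (p : ℕ).Prime := ⟨p.2⟩
    have hpos : Nat.card G ≠ 0 := Nat.card_pos.ne'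
    have hG : Nat.card G = (Nat.card G / (p : ℕ) ^ (Nat.card G).factorization p) *
        (p : ℕ) ^ (Nat.card G).factorization p :=
      (Nat.div_mul_cancel (Nat.ordProj_dvd _ _)).symm
    have hcop : (Nat.card G / (p : ℕ) ^ (Nat.card G).factorization p).Coprime
        ((p : ℕ) ^ (Nat.card G).factorization p) :=
      (Nat.Coprime.pow_left _ (Nat.coprime_ordCompl p.2 hpos)).symm
    obtain ⟨H, hH, hle⟩ := Cfsg.Agent.S0005.result _ _ hG hcop
      (Cfsg.Agent.Lib.Helper13.pcPart C p)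
      (Nat.Coprime.pow_right _ (Cfsg.Agent.Lib.Helper13.card_pcPart_coprime C hC p))
    refine ⟨H, ?_, hle⟩
    have h1 := H.card_mul_index
    rw [hH] at h1
    have hpos2 : 0 < Nat.card G / (p : ℕ) ^ (Nat.card G).factorization p :=
      Nat.div_pos (Nat.le_of_dvd Nat.card_pos (Nat.ordProj_dvd _ _)) (pow_pos p.2.pos _)
    exact Nat.eq_of_mul_eq_mul_left hpos2 (h1.trans hG)
  choose K hK1 hK2 using key
  exact ⟨K, hK1, fun p x hx ho => hK2 p (Subgroup.subset_closure ⟨hx, ho⟩)⟩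

end Cfsg.Agent.Lib.Helper61.CSN
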