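import Mathlib
import Cfsg.Prelude.Def_SolvableStructure
import Cfsg.Agent.Lib.Helper61.CSNDefs
import Cfsg.Agent.Lib.Helper61.CSNRed
import Cfsg.Agent.Lib.Helper61.CSNCsh
import Cfsg.Agent.Lib.Helper30.CSNBASE
import Cfsg.Agent.Lib.Helper2.Carter
import Cfsg.Agent.Lib.Helper13.Carter
import Cfsg.Agent.Lib.Helper12.MinNormal
import Cfsg.Agent.S0545

set_option autoImplicit false
open Cfsg Cfsg.Agent.Lib.Helper61.CSN
open scoped Pointwise

namespace Cfsg.Agent.Lib.Helper61.CSN

universe u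

/-- MAIN -/
theorem main_aux (n : ℕ) : ∀ (G : Type u) [Group G] [Finite G] [Group.IsSolvable G],
    Nat.card G = n → ∀ (C : Subgroup G) (K : Nat.Primes → Subgroup G), IsCarterSubgroup C →
      IsComplementSystem K → Red K C → systemNormalizer K ≤ C := by
  induction n using Nat.strong_induction_on with
  | _ n ih =>
  intro G _ _ _ hn C K hC hK hR
  rcases subsingleton_or_nontrivial G with hsub | hnt
  · intro x _
    rw [Subsingleton.elim x 1]; exact C.one_mem
  obtain ⟨N, hmin⟩ := Cfsg.Agent.Lib.Helper12.exists_minNormal (G := G)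
  obtain ⟨q, hq, hNq, hNc⟩ := hmin.exists_isPGroup
  have : Fact q.Prime := ⟨hq⟩
  have hNn : N.Normal := hmin.1
  -- quotient step
  have hlt : Nat.card (G ⧸ N) < n := hn ▸ Cfsg.Agent.Lib.Helper2.card_quotient_lt_of_ne_bot hmin.2.1
  obtain ⟨hKq, hDq⟩ := Cfsg.Agent.S0545.result K hK N
  have hCq : IsCarterSubgroup (C.map (QuotientGroup.mk' N)) :=
    Cfsg.Agent.Lib.Helper2.IsCarter.map_mk' (C := C) hC N
  have h1 := ih _ hlt (G ⧸ N) rfl _ _ hCq hKq (redq K C N hR)
  have hDH : systemNormalizer K ≤ C ⊔ N := by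
    intro d hd
    have : QuotientGroup.mk' N d ∈ C.map (QuotientGroup.mk' N) := by
      apply h1
      rw [hDq]
      exact Subgroup.mem_map_of_mem _ hd
    obtain ⟨c, hc, hcd⟩ := this
    have h2 : c⁻¹ * d ∈ N := by
      rw [← QuotientGroup.eq]
      exact hcd
    have : d = c * (c⁻¹ * d) := by group
    rw [this]
    exact Subgroup.mul_mem_sup hc h2
  by_cases hH : C ⊔ N = ⊤
  · -- base case
    have := Cfsg.Agent.Lib.Helper30.CSN.base q (K ⟨q, hq⟩) C N hmin hNq hC hH (hK ⟨q, hq⟩) (hR ⟨q, hq⟩)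
    exact le_trans (iInf_le _ (⟨q, hq⟩ : Nat.Primes)) this
  · have hlt2 : Nat.card (C ⊔ N : Subgroup G) < n :=
      hn ▸ Cfsg.Agent.Lib.Helper2.card_lt_of_ne_top hH
    have hCH : IsCarterSubgroup (C.subgroupOf (C ⊔ N)) :=
      Cfsg.Agent.Lib.Helper13.carter_subgroupOf C (C ⊔ N) hC le_sup_left
    have h3 := ih _ hlt2 (C ⊔ N : Subgroup G) rfl _ _ hCH (csh K hK C N hC.1 q hNq hR)
      (redh K C (C ⊔ N) hR)
    intro d hd
    have hdH := hDH hd
    have : (⟨d, hdH⟩ : (C ⊔ N : Subgroup G)) ∈ C.subgroupOf (C ⊔ N) := by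
      apply h3
      unfold systemNormalizer at hd ⊢
      rw [Subgroup.mem_iInf] at hd ⊢
      intro p
      have hp := hd p
      rw [Subgroup.mem_normalizer_iff] at hp ⊢
      intro x
      simp only [Subgroup.mem_subgroupOf]
      exact hp x
    exact this

theorem main {G : Type u} [Group G] [Finite G] [Group.IsSolvable G] (C : Subgroup G)
    (K : Nat.Primes → Subgroup G) (hC : IsCarterSubgroup C) (hK : IsComplementSystem K)
    (hR : Red K C) : systemNormalizer K ≤ C :=
  main_aux _ G rfl C K hC hK hR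

end Cfsg.Agent.Lib.Helper61.CSN
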