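import Cfsg.Agent.Lib.Helper61.FHDefs

set_option autoImplicit false

/-! RUNG ALG1 of the ladder towards S1142: identities in the rank two Hecke algebra. -/

namespace Cfsg.Agent.Lib.Helper61.FH

variable {R : Type*} [Ring R] [Algebra ℝ R] {a b : ℝ} {A₁ A₂ : R}

theorem cX_swap : cX b a A₂ A₁ = cX a b A₁ A₂ := by
  unfold cX
  rw [mul_comm (b - 1) (a - 1)]
  abel

theorem cX_comm₁ (h₁ : A₁ * A₁ = a • (1 : R) + (a - 1) • A₁) :
    cX a b A₁ A₂ * A₁ = A₁ * cX a b A₁ A₂ := by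
  have e1 : A₂ * A₁ * A₁ = a • A₂ + (a - 1) • (A₂ * A₁) := by
    rw [mul_assoc, h₁, mul_add, mul_smul_comm, mul_smul_comm, mul_one]
  have e2 : A₁ * (A₁ * A₂) = a • A₂ + (a - 1) • (A₁ * A₂) := by
    rw [← mul_assoc, h₁, add_mul, smul_mul_assoc, smul_mul_assoc, one_mul]
  unfold cX
  simp only [add_mul, sub_mul, mul_add, mul_sub, smul_mul_assoc, mul_smul_comm, one_mul, mul_one,
    e1, e2]
  rw [mul_assoc A₁ A₂ A₁]
  module

theorem cX_comm₂ (h₂ : A₂ * A₂ = b • (1 : R) + (b - 1) • A₂) :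
    cX a b A₁ A₂ * A₂ = A₂ * cX a b A₁ A₂ := by
  rw [← cX_swap]
  exact cX_comm₁ h₂

theorem tri (h₁ : A₁ * A₁ = a • (1 : R) + (a - 1) • A₁) :
    A₁ * A₂ * A₁ = cX a b A₁ A₂ * A₁ - a • A₂ + (a * (b - 1)) • (1 : R) := by
  have e1 : A₂ * A₁ * A₁ = a • A₂ + (a - 1) • (A₂ * A₁) := by
    rw [mul_assoc, h₁, mul_add, mul_smul_comm, mul_smul_comm, mul_one]
  unfold cX
  simp only [add_mul, sub_mul, smul_mul_assoc, one_mul, e1, h₁]
  module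

theorem rot_sq (h₁ : A₁ * A₁ = a • (1 : R) + (a - 1) • A₁)
    (h₂ : A₂ * A₂ = b • (1 : R) + (b - 1) • A₂) :
    (A₂ * A₁) * (A₂ * A₁) = cX a b A₁ A₂ * (A₂ * A₁) - (a * b) • (1 : R) := by
  have e1 : A₁ * A₂ * (A₂ * A₁) = (a * b) • (1 : R) + (b * (a - 1)) • A₁ + (b - 1) • (A₁ * A₂ * A₁) := by
    have : A₁ * A₂ * (A₂ * A₁) = A₁ * (A₂ * A₂) * A₁ := by simp only [mul_assoc]
    rw [this, h₂, mul_add, add_mul, mul_smul_comm, mul_smul_comm, smul_mul_assoc, smul_mul_assoc,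
      mul_one, h₁]
    module
  have e2 : A₂ * (A₂ * A₁) = b • A₁ + (b - 1) • (A₂ * A₁) := by
    rw [← mul_assoc, h₂, add_mul, smul_mul_assoc, smul_mul_assoc, one_mul]
  have e3 : A₁ * (A₂ * A₁) = A₁ * A₂ * A₁ := (mul_assoc _ _ _).symm
  unfold cX
  simp only [add_mul, sub_mul, smul_mul_assoc, one_mul, e1, e2, e3]
  module

theorem diff_sq (h₁ : A₁ * A₁ = a • (1 : R) + (a - 1) • A₁)
    (h₂ : A₂ * A₂ = a • (1 : R) + (a - 1) • A₂) :
    (A₁ - A₂) * (A₁ - A₂) = (a * a + 1) • (1 : R) - cX a a A₁ A₂ := by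
  unfold cX
  simp only [sub_mul, mul_sub, h₁, h₂]
  module

/-- `A₂A₁ = X - A₁A₂ + (b-1)A₁ + (a-1)A₂ - (a-1)(b-1)` -/
theorem rot_eq : A₂ * A₁ = cX a b A₁ A₂ - A₁ * A₂ + (b - 1) • A₁ + (a - 1) • A₂
    - ((a - 1) * (b - 1)) • (1 : R) := by
  unfold cX
  module

theorem comm_sq (h₁ : A₁ * A₁ = a • (1 : R) + (a - 1) • A₁)
    (h₂ : A₂ * A₂ = b • (1 : R) + (b - 1) • A₂) :
    (A₁ * A₂ - A₂ * A₁) * (A₁ * A₂ - A₂ * A₁) =
      - (((a * b + 1) • (1 : R) - cX a b A₁ A₂) * ((a + b) • (1 : R) + cX a b A₁ A₂)) := by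
  set X := cX a b A₁ A₂ with hX
  have c1 : X * A₁ = A₁ * X := cX_comm₁ h₁
  have c2 : X * A₂ = A₂ * X := cX_comm₂ h₂
  -- squares of the two rotations
  have r1 : (A₂ * A₁) * (A₂ * A₁) = X * (A₂ * A₁) - (a * b) • (1 : R) := rot_sq h₁ h₂
  have r2 : (A₁ * A₂) * (A₁ * A₂) = X * (A₁ * A₂) - (a * b) • (1 : R) := by
    have := rot_sq (a := b) (b := a) (A₁ := A₂) (A₂ := A₁) h₂ h₁
    rw [cX_swap, mul_comm b a] at this
    exact this
  -- the mixed products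
  have t1 : A₁ * A₂ * A₁ = X * A₁ - a • A₂ + (a * (b - 1)) • (1 : R) := tri h₁
  have t2 : A₂ * A₁ * A₂ = X * A₂ - b • A₁ + (b * (a - 1)) • (1 : R) := by
    have := tri (a := b) (b := a) (A₁ := A₂) (A₂ := A₁) h₂
    rw [cX_swap] at this
    exact this
  have m1 : (A₁ * A₂) * (A₂ * A₁) = (a * b) • (1 : R) + (b * (a - 1)) • A₁
      + (b - 1) • (A₁ * A₂ * A₁) := by
    have : A₁ * A₂ * (A₂ * A₁) = A₁ * (A₂ * A₂) * A₁ := by simp only [mul_assoc]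
    rw [this, h₂, mul_add, add_mul, mul_smul_comm, mul_smul_comm, smul_mul_assoc, smul_mul_assoc,
      mul_one, h₁]
    module
  have m2 : (A₂ * A₁) * (A₁ * A₂) = (a * b) • (1 : R) + (a * (b - 1)) • A₂
      + (a - 1) • (A₂ * A₁ * A₂) := by
    have : A₂ * A₁ * (A₁ * A₂) = A₂ * (A₁ * A₁) * A₂ := by simp only [mul_assoc]
    rw [this, h₁, mul_add, add_mul, mul_smul_comm, mul_smul_comm, smul_mul_assoc, smul_mul_assoc,
      mul_one, h₂]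
    module
  have hsum : A₁ * A₂ + A₂ * A₁ = X + (b - 1) • A₁ + (a - 1) • A₂ - ((a - 1) * (b - 1)) • (1 : R) := by
    rw [hX]; unfold cX; module
  have hXsum : X * (A₁ * A₂) + X * (A₂ * A₁) = X * X + (b - 1) • (X * A₁) + (a - 1) • (X * A₂)
      - ((a - 1) * (b - 1)) • X := by
    rw [← mul_add, hsum]
    simp only [mul_add, mul_sub, mul_smul_comm, mul_one]
  have lhs : (A₁ * A₂ - A₂ * A₁) * (A₁ * A₂ - A₂ * A₁) =
      (X * (A₁ * A₂) + X * (A₂ * A₁)) - (2 * (a * b)) • (1 : R)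
        - (A₁ * A₂) * (A₂ * A₁) - (A₂ * A₁) * (A₁ * A₂) := by
    simp only [sub_mul, mul_sub, r1, r2]
    module
  rw [lhs, hXsum, m1, m2, t1, t2]
  simp only [sub_mul, mul_add, add_mul, smul_mul_assoc, mul_smul_comm, one_mul, mul_one]
  module

end Cfsg.Agent.Lib.Helper61.FH
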