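import Cfsg.Agent.Lib.Helper61.FHAlg1

set_option autoImplicit false

/-! RUNG ALG2 of the ladder towards S1142: powers of the rotation, the annihilating polynomial. -/

namespace Cfsg.Agent.Lib.Helper61.FH

open Polynomial

theorem alt_even {M : Type*} [Monoid M] (x y : M) (k : ℕ) : alt x y (2 * k) = (x * y) ^ k := by
  induction k with
  | zero => simp
  | succ k ih =>
    have : 2 * (k + 1) = (2 * k + 1) + 1 := by ring
    rw [this, alt_succ, alt_succ, ih, pow_succ', mul_assoc]

theorem alt_odd {M : Type*} [Monoid M] (x y : M) (k : ℕ) :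
    alt x y (2 * k + 1) = x * (y * x) ^ k := by
  rw [alt_succ, alt_even]

variable {R : Type*} [Ring R] [Algebra ℝ R] {a b : ℝ} {A₁ A₂ : R}

theorem commute_aeval {X Y : R} (h : X * Y = Y * X) (f : ℝ[X]) :
    aeval X f * Y = Y * aeval X f := by
  induction f using Polynomial.induction_on' with
  | add p q hp hq => rw [map_add, add_mul, mul_add, hp, hq]
  | monomial n c =>
    rw [aeval_monomial]
    have h1 : Commute (X ^ n) Y := Commute.pow_left h n
    rw [mul_assoc, h1.eq, ← mul_assoc, ← mul_assoc, Algebra.commutes c Y]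

theorem Pq_succ_succ (c : ℝ) (k : ℕ) : Pq c (k + 2) = X * Pq c (k + 1) - C c * Pq c k := rfl

theorem rot_pow (h₁ : A₁ * A₁ = a • (1 : R) + (a - 1) • A₁)
    (h₂ : A₂ * A₂ = b • (1 : R) + (b - 1) • A₂) (k : ℕ) :
    (A₂ * A₁) ^ (k + 1) = aeval (cX a b A₁ A₂) (Pq (a * b) (k + 1)) * (A₂ * A₁)
      - (a * b) • aeval (cX a b A₁ A₂) (Pq (a * b) k) := by
  induction k with
  | zero => simp [Pq]
  | succ k ih =>
    rw [pow_succ, ih, sub_mul, mul_assoc, rot_sq h₁ h₂, Pq_succ_succ]
    simp only [map_sub, map_mul, aeval_X, aeval_C, mul_sub, sub_mul, smul_mul_assoc,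
      mul_smul_comm, mul_one, Algebra.algebraMap_eq_smul_one, one_mul]
    have hc : aeval (cX a b A₁ A₂) (Pq (a * b) (k + 1)) * cX a b A₁ A₂ =
        cX a b A₁ A₂ * aeval (cX a b A₁ A₂) (Pq (a * b) (k + 1)) := commute_aeval rfl _
    rw [← mul_assoc, hc]
    module

theorem rot_pow' (h₁ : A₁ * A₁ = a • (1 : R) + (a - 1) • A₁)
    (h₂ : A₂ * A₂ = b • (1 : R) + (b - 1) • A₂) (k : ℕ) :
    (A₁ * A₂) ^ (k + 1) = aeval (cX a b A₁ A₂) (Pq (a * b) (k + 1)) * (A₁ * A₂)
      - (a * b) • aeval (cX a b A₁ A₂) (Pq (a * b) k) := by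
  have := rot_pow (a := b) (b := a) (A₁ := A₂) (A₂ := A₁) h₂ h₁ k
  rw [cX_swap, mul_comm b a] at this
  exact this

theorem aeval_mu (h₁ : A₁ * A₁ = a • (1 : R) + (a - 1) • A₁)
    (h₂ : A₂ * A₂ = b • (1 : R) + (b - 1) • A₂)
    (m : ℕ) (hbraid : alt A₁ A₂ m = alt A₂ A₁ m) (hodd : m % 2 = 1 → a = b) :
    aeval (cX a b A₁ A₂) (mu a b m) = 0 := by
  set X := cX a b A₁ A₂ with hX
  rcases Nat.even_or_odd' m with ⟨K, rfl | rfl⟩
  · -- even case
    have hmu : mu a b (2 * K) = Pq (a * b) K * ((C (a * b + 1) - Polynomial.X) * (C (a + b) + Polynomial.X)) := by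
      unfold mu
      rw [if_pos (by omega), show 2 * K / 2 = K by omega, mul_comm]
    rw [hmu, map_mul]
    rcases K with _ | k
    · simp [Pq]
    · rw [alt_even, alt_even, rot_pow h₁ h₂, rot_pow' h₁ h₂] at hbraid
      have h0 : aeval X (Pq (a * b) (k + 1)) * (A₁ * A₂ - A₂ * A₁) = 0 := by
        rw [mul_sub, sub_eq_zero]
        exact sub_left_injective hbraid
      have h1 : aeval X (Pq (a * b) (k + 1)) * ((A₁ * A₂ - A₂ * A₁) * (A₁ * A₂ - A₂ * A₁)) = 0 := by
        rw [← mul_assoc, h0, zero_mul]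
      rw [comm_sq h₁ h₂, mul_neg, neg_eq_zero] at h1
      rw [map_mul, map_sub, map_add (aeval X) (C (a + b)) Polynomial.X, aeval_X, aeval_C, aeval_C,
        Algebra.algebraMap_eq_smul_one, Algebra.algebraMap_eq_smul_one]
      exact h1
  · -- odd case
    have hab : a = b := hodd (by omega)
    subst hab
    have hmu : mu a a (2 * K + 1) = (Pq (a * a) (K + 1) + C a * Pq (a * a) K) *
        (C (a * a + 1) - Polynomial.X) := by
      unfold mu
      rw [if_neg (by omega), show (2 * K + 1) / 2 = K by omega, mul_comm]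
    rw [hmu, map_mul]
    have hd : aeval X (C (a * a + 1) - Polynomial.X) = (A₁ - A₂) * (A₁ - A₂) := by
      rw [diff_sq h₁ h₂, map_sub, aeval_X, aeval_C, Algebra.algebraMap_eq_smul_one]
    rw [hd, ← mul_assoc]
    suffices h : aeval X (Pq (a * a) (K + 1) + C a * Pq (a * a) K) * (A₁ - A₂) = 0 by
      rw [h, zero_mul]
    rw [alt_odd, alt_odd] at hbraid
    rcases K with _ | k
    · simp only [pow_zero, mul_one] at hbraid
      rw [hbraid, sub_self, mul_zero]
    · rw [rot_pow h₁ h₂, rot_pow' h₁ h₂] at hbraid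
      have c1 : ∀ f : ℝ[X], A₁ * aeval X f = aeval X f * A₁ := fun f =>
        (commute_aeval (cX_comm₁ h₁) f).symm
      have c2 : ∀ f : ℝ[X], A₂ * aeval X f = aeval X f * A₂ := fun f =>
        (commute_aeval (cX_comm₂ h₂) f).symm
      have t1 : A₁ * A₂ * A₁ = X * A₁ - a • A₂ + (a * (a - 1)) • (1 : R) := tri h₁
      have t2 : A₂ * A₁ * A₂ = X * A₂ - a • A₁ + (a * (a - 1)) • (1 : R) := by
        have := tri (a := a) (b := a) (A₁ := A₂) (A₂ := A₁) h₂
        rw [cX_swap] at this
        exact this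
      set p1 := aeval X (Pq (a * a) (k + 1)) with hp1
      set p0 := aeval X (Pq (a * a) k) with hp0
      have e1 : A₁ * (p1 * (A₂ * A₁) - (a * a) • p0) =
          p1 * (X * A₁ - a • A₂ + (a * (a - 1)) • (1 : R)) - (a * a) • (p0 * A₁) := by
        rw [mul_sub, ← mul_assoc, c1, mul_assoc, ← mul_assoc A₁ A₂ A₁, t1, mul_smul_comm, c1]
      have e2 : A₂ * (p1 * (A₁ * A₂) - (a * a) • p0) =
          p1 * (X * A₂ - a • A₁ + (a * (a - 1)) • (1 : R)) - (a * a) • (p0 * A₂) := by
        rw [mul_sub, ← mul_assoc, c2, mul_assoc, ← mul_assoc A₂ A₁ A₂, t2, mul_smul_comm, c2]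
      rw [e1, e2] at hbraid
      have hc : p1 * X = X * p1 := commute_aeval rfl _
      rw [Pq_succ_succ]
      simp only [map_add, map_sub, map_mul, aeval_X, aeval_C, Algebra.algebraMap_eq_smul_one,
        smul_mul_assoc, one_mul, ← hp1, ← hp0]
      have := sub_eq_zero.2 hbraid
      rw [← this]
      simp only [mul_add, mul_sub, add_mul, sub_mul, mul_smul_comm, smul_mul_assoc, mul_one,
        ← mul_assoc, hc]
      module

theorem Pq_monic_natDegree (c : ℝ) (k : ℕ) :
    (Pq c (k + 1)).Monic ∧ (Pq c (k + 1)).natDegree = k := by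
  induction k using Nat.strong_induction_on with
  | _ k ih =>
    rcases k with _ | _ | k
    · exact ⟨by simp [Pq], by simp [Pq]⟩
    · have : Pq c 2 = Polynomial.X := by simp [Pq]
      rw [this]
      exact ⟨monic_X, natDegree_X⟩
    · obtain ⟨m1, d1⟩ := ih (k + 1) (by omega)
      obtain ⟨m0, d0⟩ := ih k (by omega)
      have hP : Pq c (k + 2 + 1) = Polynomial.X * Pq c (k + 1 + 1) - C c * Pq c (k + 1) := rfl
      have mX : (Polynomial.X * Pq c (k + 1 + 1)).Monic := monic_X.mul m1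
      have dX : (Polynomial.X * Pq c (k + 1 + 1)).natDegree = k + 2 := by
        rw [natDegree_X_mul m1.ne_zero, d1]
      have hlt' : (C c * Pq c (k + 1)).natDegree < (Polynomial.X * Pq c (k + 1 + 1)).natDegree := by
        rw [dX]
        refine lt_of_le_of_lt (natDegree_C_mul_le _ _) ?_
        rw [d0]
        omega
      refine ⟨hP ▸ mX.sub_of_left (degree_lt_degree hlt'), ?_⟩
      rw [hP, natDegree_sub_eq_left_of_natDegree_lt hlt', dX]

theorem natDegree_mu (a b : ℝ) (m : ℕ) (hm : 1 ≤ m) : (mu a b m).natDegree = m / 2 + 1 := by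
  have h1 : ∀ t : ℝ, (C t - Polynomial.X : ℝ[X]).natDegree = 1 := by
    intro t
    rw [← neg_sub, natDegree_neg, natDegree_X_sub_C]
  have h1' : ∀ t : ℝ, (C t - Polynomial.X : ℝ[X]) ≠ 0 := by
    intro t h
    have := h1 t
    rw [h] at this
    simp at this
  have h2 : ∀ t : ℝ, (C t + Polynomial.X : ℝ[X]).natDegree = 1 := by
    intro t
    rw [add_comm, natDegree_X_add_C]
  have h2' : ∀ t : ℝ, (C t + Polynomial.X : ℝ[X]) ≠ 0 := by
    intro t h
    have := h2 t
    rw [h] at this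
    simp at this
  rcases Nat.even_or_odd' m with ⟨K, rfl | rfl⟩
  · obtain ⟨k, rfl⟩ : ∃ k, K = k + 1 := ⟨K - 1, by omega⟩
    obtain ⟨mk, dk⟩ := Pq_monic_natDegree (a * b) k
    unfold mu
    rw [if_pos (by omega), show 2 * (k + 1) / 2 = k + 1 by omega,
      natDegree_mul (mul_ne_zero (h1' _) (h2' _)) mk.ne_zero, natDegree_mul (h1' _) (h2' _),
      h1, h2, dk]
    omega
  · obtain ⟨mk, dk⟩ := Pq_monic_natDegree (a * b) K
    have hlt : (C a * Pq (a * b) K).natDegree < (Pq (a * b) (K + 1)).natDegree ∨ K = 0 := by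
      rcases K with _ | k
      · right; rfl
      · left
        rw [dk]
        refine lt_of_le_of_lt (natDegree_C_mul_le _ _) ?_
        rw [(Pq_monic_natDegree (a * b) k).2]
        omega
    have hd : (Pq (a * b) (K + 1) + C a * Pq (a * b) K).natDegree = K := by
      rcases hlt with hlt | rfl
      · rw [natDegree_add_eq_left_of_natDegree_lt hlt, dk]
      · simp [Pq]
    have hne : (Pq (a * b) (K + 1) + C a * Pq (a * b) K) ≠ 0 := by
      rcases hlt with hlt | rfl
      · intro h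
        have h3 : Pq (a * b) (K + 1) = - (C a * Pq (a * b) K) := eq_neg_of_add_eq_zero_left h
        rw [h3, natDegree_neg] at hlt
        exact lt_irrefl _ hlt
      · simp [Pq]
    unfold mu
    rw [if_neg (by omega), show (2 * K + 1) / 2 = K by omega, natDegree_mul (h1' _) hne, h1, hd]
    omega

end Cfsg.Agent.Lib.Helper61.FH
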