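import Mathlib

set_option autoImplicit false

/-! Definitions for the ladder towards the theorem of Feit and Higman on rank two pairs (S1142):
alternating products, the central element of the rank two Hecke algebra, the polynomials
of Chebyshev type, and the abstract data extracted from the chamber set. -/

namespace Cfsg.Agent.Lib.Helper61.FH

open Matrix Polynomial

/-- alternating product `x * y * x * ...` with `k` factors -/
def alt {R : Type*} [Monoid R] : R → R → ℕ → R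
  | _, _, 0 => 1
  | x, y, (k + 1) => x * alt y x k

@[simp] lemma alt_zero {R : Type*} [Monoid R] (x y : R) : alt x y 0 = 1 := rfl

lemma alt_succ {R : Type*} [Monoid R] (x y : R) (k : ℕ) : alt x y (k + 1) = x * alt y x k := rfl

/-- the central element `A₁A₂ + A₂A₁ - (b-1)A₁ - (a-1)A₂ + (a-1)(b-1)` -/
def cX {R : Type*} [Ring R] [Algebra ℝ R] (a b : ℝ) (A₁ A₂ : R) : R :=
  A₁ * A₂ + A₂ * A₁ - (b - 1) • A₁ - (a - 1) • A₂ + ((a - 1) * (b - 1)) • (1 : R)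

/-- `Pq c 0 = 0`, `Pq c 1 = 1`, `Pq c (k+2) = X * Pq c (k+1) - c * Pq c k` -/
noncomputable def Pq (c : ℝ) : ℕ → ℝ[X]
  | 0 => 0
  | 1 => 1
  | (k + 2) => X * Pq c (k + 1) - C c * Pq c k

/-- the polynomial annihilating the central element -/
noncomputable def mu (a b : ℝ) (m : ℕ) : ℝ[X] :=
  if m % 2 = 0 then (C (a * b + 1) - X) * (C (a + b) + X) * Pq (a * b) (m / 2)
  else (C (a * b + 1) - X) * (Pq (a * b) (m / 2 + 1) + C a * Pq (a * b) (m / 2))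

/-- solution of `s (k+2) = x * s (k+1) - c * s k` with `s 0 = s0`, `s 1 = s1` -/
def rec2 (x c s0 s1 : ℝ) : ℕ → ℝ
  | 0 => s0
  | 1 => s1
  | (k + 2) => x * rec2 x c s0 s1 (k + 1) - c * rec2 x c s0 s1 k

/-- the value of the two dimensional character with parameter `x` at `A₁A₂A₁...` (`n` factors) -/
def chi (a b x : ℝ) (n : ℕ) : ℝ :=
  if n % 2 = 0 then rec2 x (a * b) 2 x (n / 2)
  else rec2 x (a * b) (a - 1) (a * (b - 1) + (a - 1) * x) (n / 2)

/-- the sum over the `2m` basis elements of `chi ^ 2 / q` -/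
noncomputable def Ssum (a b x : ℝ) (m : ℕ) : ℝ :=
  ∑ k ∈ Finset.range m, chi a b x k ^ 2 / alt a b k +
    ∑ k ∈ Finset.range m, chi b a x (k + 1) ^ 2 / alt b a (k + 1)

/-- the eigenvalue `2 √(ab) cos (2πj/m)` -/
noncomputable def xj (a b : ℝ) (m j : ℕ) : ℝ :=
  2 * Real.sqrt (a * b) * Real.cos (2 * Real.pi * j / m)

/-- The abstract data: two symmetric matrices on the chamber set with the quadratic relations, the
braid relation of length `m`, and orthogonality of the `2m` alternating products for the trace form. -/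
structure Data {Ω : Type*} [Fintype Ω] [DecidableEq Ω] (m a b : ℕ) (A₁ A₂ : Matrix Ω Ω ℝ) :
    Prop where
  hm : 2 ≤ m
  ha : 2 ≤ a
  hb : 2 ≤ b
  ne : Nonempty Ω
  symm₁ : A₁ᵀ = A₁
  symm₂ : A₂ᵀ = A₂
  sq₁ : A₁ * A₁ = (a : ℝ) • (1 : Matrix Ω Ω ℝ) + ((a : ℝ) - 1) • A₁
  sq₂ : A₂ * A₂ = (b : ℝ) • (1 : Matrix Ω Ω ℝ) + ((b : ℝ) - 1) • A₂
  braid : alt A₁ A₂ m = alt A₂ A₁ m
  normL : ∀ k ≤ m, trace (alt A₁ A₂ k * (alt A₁ A₂ k)ᵀ) = Fintype.card Ω * alt (a : ℝ) b k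
  normR : ∀ k ≤ m, trace (alt A₂ A₁ k * (alt A₂ A₁ k)ᵀ) = Fintype.card Ω * alt (b : ℝ) a k
  orthLL : ∀ k ≤ m, ∀ l ≤ m, k ≠ l → trace (alt A₁ A₂ k * (alt A₁ A₂ l)ᵀ) = 0
  orthRR : ∀ k ≤ m, ∀ l ≤ m, k ≠ l → trace (alt A₂ A₁ k * (alt A₂ A₁ l)ᵀ) = 0
  orthLR : ∀ k < m, ∀ l ≤ m, 0 < l → trace (alt A₁ A₂ k * (alt A₂ A₁ l)ᵀ) = 0

end Cfsg.Agent.Lib.Helper61.FH
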