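import Cfsg.Agent.Lib.Helper61.FHDefsBN
import Cfsg.Agent.Lib.Helper9.FHW
import Cfsg.Agent.Lib.Helper41.FHT

set_option autoImplicit false

/-! RUNG BN of the ladder towards S1142: the abstract data of a rank two pair. -/

namespace Cfsg.Agent.Lib.Helper61.FH

open Matrix Cfsg.Agent.Lib.Helper8 Cfsg.Agent.Lib.Helper9.FH Cfsg.Agent.Lib.Helper41.FH


universe u
variable {G : Type u} [Group G] [Finite G] (P : Cfsg.BNPair G)

theorem exists_data (h2 : P.rank = 2) :
    ∃ (m a b : ℕ) (A₁ A₂ : Matrix (Ch P) (Ch P) ℝ), Data m a b A₁ A₂ ∧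
      ((P.B ⊓ P.N).subgroupOf P.N).index = 2 * m := by
  obtain ⟨s₁, s₂, hs, huniv⟩ := Nat.card_eq_two_iff.1 (show Nat.card P.S = 2 from h2)
  have hall : ∀ s : P.S, s = s₁ ∨ s = s₂ := by
    intro s
    have : s ∈ ({s₁, s₂} : Set P.S) := by rw [huniv]; trivial
    simpa using this
  set σ := sg P s₁ with hσdef
  set τ := sg P s₂ with hτdef
  have hσ : σ * σ = 1 := sg_mul_self s₁
  have hτ : τ * τ = 1 := sg_mul_self s₂
  have hne : σ ≠ τ := fun h => hs (sg_injective h)
  have hgen : Subgroup.closure ({σ, τ} : Set (Wy P)) = ⊤ := by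
    rw [eq_top_iff]
    intro w _
    obtain ⟨L, rfl⟩ := exists_word w
    induction L with
    | nil => simp
    | cons s L ih =>
      rw [wp_cons]
      refine Subgroup.mul_mem _ (Subgroup.subset_closure ?_) (ih trivial)
      rcases hall s with rfl | rfl
      · left; rfl
      · right; rfl
  obtain ⟨hn2, hcard, hbr, hinjL, hinjR, hLR⟩ :=
    dihedral_facts σ τ hσ hτ (sg_ne_one s₁) (sg_ne_one s₂) hne hgen
  set n := orderOf (σ * τ) with hn
  have hsg : ∀ s, (s = σ ∨ s = τ) → ∃ j : P.S, s = sg P j := by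
    rintro s (rfl | rfl)
    · exact ⟨s₁, rfl⟩
    · exact ⟨s₂, rfl⟩
  have hQ1 : ∀ k < n, alt τ σ k ∈ Qs P s₁ := by
    refine alt_mem_Q σ τ n (Qs P s₁) (qfam.one_mem s₁) ?_ ?_
    · intro w hw s hs' hnot
      obtain ⟨j, rfl⟩ := hsg s hs'
      exact qfam.exch s₁ j w hw hnot
    · intro k hk0 hkn
      exact hLR k hkn k hkn.le hk0
  have hQ2 : ∀ k < n, alt σ τ k ∈ Qs P s₂ := by
    refine alt_mem_Q τ σ n (Qs P s₂) (qfam.one_mem s₂) ?_ ?_
    · intro w hw s hs' hnot
      obtain ⟨j, rfl⟩ := hsg s hs'.symm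
      exact qfam.exch s₂ j w hw hnot
    · intro k hk0 hkn
      exact (hLR k hkn k hkn.le hk0).symm
  set A₁ := Tm P σ with hA₁
  set A₂ := Tm P τ with hA₂
  set a := qq P σ with ha
  set b := qq P τ with hb
  have hT : ∀ k ≤ n, alt A₁ A₂ k = Tm P (alt σ τ k) ∧ alt A₂ A₁ k = Tm P (alt τ σ k) := by
    intro k
    induction k with
    | zero => intro _; simp [Tm_one]
    | succ k ih =>
      intro hk
      obtain ⟨i1, i2⟩ := ih (by omega)
      constructor
      · rw [alt_succ, alt_succ, i2]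
        exact Tm_mul P (hQ1 k (by omega))
      · rw [alt_succ, alt_succ, i1]
        exact Tm_mul P (hQ2 k (by omega))
  have hq : ∀ k ≤ n, (qq P (alt σ τ k) : ℝ) = alt (a : ℝ) b k ∧
      (qq P (alt τ σ k) : ℝ) = alt (b : ℝ) a k := by
    intro k
    induction k with
    | zero => intro _; simp [qq_one]
    | succ k ih =>
      intro hk
      obtain ⟨i1, i2⟩ := ih (by omega)
      constructor
      · rw [alt_succ, alt_succ, ← i2, qq_mul P (hQ1 k (by omega))]
        push_cast
        rfl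
      · rw [alt_succ, alt_succ, ← i1, qq_mul P (hQ2 k (by omega))]
        push_cast
        rfl
  refine ⟨n, a, b, A₁, A₂, ?_, ?_⟩
  · refine
      { hm := hn2
        ha := two_le_qq P s₁
        hb := two_le_qq P s₂
        ne := ⟨Ch.mk P 1⟩
        symm₁ := by rw [hA₁, Tm_transpose, hσdef, sg_inv]
        symm₂ := by rw [hA₂, Tm_transpose, hτdef, sg_inv]
        sq₁ := Tm_sq P s₁
        sq₂ := Tm_sq P s₂
        braid := by rw [(hT n le_rfl).1, (hT n le_rfl).2, hbr]
        normL := fun k hk => by rw [(hT k hk).1, trace_Tm_self, (hq k hk).1]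
        normR := fun k hk => by rw [(hT k hk).2, trace_Tm_self, (hq k hk).2]
        orthLL := fun k hk l hl hkl => by
          rw [(hT k hk).1, (hT l hl).1]
          exact trace_Tm_ne P (fun h => hkl (hinjL k hk l hl h))
        orthRR := fun k hk l hl hkl => by
          rw [(hT k hk).2, (hT l hl).2]
          exact trace_Tm_ne P (fun h => hkl (hinjR k hk l hl h))
        orthLR := fun k hk l hl hl0 => by
          rw [(hT k hk.le).1, (hT l hl).2]
          exact trace_Tm_ne P (hLR k hk l hl hl0) }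
  · rw [← hcard]
    rfl

end Cfsg.Agent.Lib.Helper61.FH
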