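import Cfsg.Agent.Lib.Helper61.FHDefs
import Cfsg.Agent.Lib.Helper8.BNPar
import Cfsg.Agent.Lib.Helper45.BNCount

set_option autoImplicit false

/-! The chamber set of a finite group with a (B,N)-pair and the indicator matrices of the
double cosets (ladder towards S1142). -/

namespace Cfsg.Agent.Lib.Helper61.FH

open Matrix Cfsg.Agent.Lib.Helper8

universe u
variable {G : Type u} [Group G] (P : Cfsg.BNPair G)

/-- the chamber set `G ⧸ B` -/
def Ch : Type u := G ⧸ P.B

noncomputable instance [Finite G] : Fintype (Ch P) := Fintype.ofFinite (G ⧸ P.B)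
noncomputable instance : DecidableEq (Ch P) := Classical.decEq _

/-- the chamber `g B` -/
def Ch.mk (g : G) : Ch P := (QuotientGroup.mk g : G ⧸ P.B)

open Classical in
/-- the indicator matrix of the double coset `C w` on the chamber set -/
noncomputable def Tm (w : Wy P) : Matrix (Ch P) (Ch P) ℝ :=
  fun x y => if (Quotient.out (s := QuotientGroup.leftRel P.B) x)⁻¹ *
    (Quotient.out (s := QuotientGroup.leftRel P.B) y) ∈ C P w then 1 else 0

/-- the index parameter `|C w| / |B|` -/
noncomputable def qq (w : Wy P) : ℕ := Nat.card (C P w) / Nat.card P.B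

end Cfsg.Agent.Lib.Helper61.FH
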