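import Cfsg.Agent.Lib.Helper61.FHAlg2
import Cfsg.Agent.Lib.Helper54.FHSpan

set_option autoImplicit false

/-! RUNG IDEM of the ladder towards S1142: the idempotent attached to a root of `mu`. -/

namespace Cfsg.Agent.Lib.Helper61.FH

open Matrix Polynomial

variable {Ω : Type*} [Fintype Ω] [DecidableEq Ω] {m a b : ℕ} {A₁ A₂ : Matrix Ω Ω ℝ}


theorem cX_transpose {a b : ℝ} (h₁ : A₁ᵀ = A₁) (h₂ : A₂ᵀ = A₂) : (cX a b A₁ A₂)ᵀ = cX a b A₁ A₂ := by
  unfold cX
  simp only [transpose_add, transpose_sub, transpose_mul, transpose_smul, transpose_one, h₁, h₂]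
  abel

theorem aeval_transpose (X : Matrix Ω Ω ℝ) (f : ℝ[X]) : (aeval X f)ᵀ = aeval Xᵀ f := by
  induction f using Polynomial.induction_on' with
  | add p q hp hq => rw [map_add, map_add, transpose_add, hp, hq]
  | monomial n c =>
    rw [aeval_monomial, aeval_monomial, transpose_mul, transpose_pow,
      Algebra.algebraMap_eq_smul_one, transpose_smul, transpose_one, smul_mul_assoc, one_mul,
      mul_smul_comm, mul_one]

theorem aeval_mul_eigen {X M : Matrix Ω Ω ℝ} {x : ℝ} (h : X * M = x • M) (f : ℝ[X]) :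
    aeval X f * M = f.eval x • M := by
  induction f using Polynomial.induction_on' with
  | add p q hp hq => rw [map_add, add_mul, hp, hq, eval_add, add_smul]
  | monomial n c =>
    have hn : X ^ n * M = x ^ n • M := by
      induction n with
      | zero => simp
      | succ n ih => rw [pow_succ, mul_assoc, h, mul_smul_comm, ih, smul_smul, pow_succ, mul_comm]
    rw [aeval_monomial, Algebra.algebraMap_eq_smul_one, smul_mul_assoc, one_mul, smul_mul_assoc, hn,
      smul_smul, eval_monomial]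

theorem exists_idem (d : Data m a b A₁ A₂) (x : ℝ) (hx : (mu a b m).IsRoot x) :
    ∃ Q : ℝ[X], aeval (cX (a : ℝ) b A₁ A₂) Q ≠ 0 ∧
      aeval (cX (a : ℝ) b A₁ A₂) Q * aeval (cX (a : ℝ) b A₁ A₂) Q = aeval (cX (a : ℝ) b A₁ A₂) Q ∧
      cX (a : ℝ) b A₁ A₂ * aeval (cX (a : ℝ) b A₁ A₂) Q = x • aeval (cX (a : ℝ) b A₁ A₂) Q := by
  set Xm := cX (a : ℝ) b A₁ A₂ with hXm
  obtain ⟨Q₀, hQ₀⟩ := dvd_iff_isRoot.2 hx
  have hdeg : (mu a b m).natDegree = m / 2 + 1 := natDegree_mu a b m (by have := d.hm; omega)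
  have hmu0 : mu (a : ℝ) b m ≠ 0 := by
    intro h
    rw [h] at hdeg
    simp at hdeg
  have hQ0 : Q₀ ≠ 0 := by
    rintro rfl
    rw [mul_zero] at hQ₀
    exact hmu0 hQ₀
  have hdQ : Q₀.natDegree = m / 2 := by
    rw [hQ₀, natDegree_mul (X_sub_C_ne_zero x) hQ0, natDegree_X_sub_C] at hdeg
    omega
  set M₀ := aeval Xm Q₀ with hM₀
  have hM0 : M₀ ≠ 0 := Cfsg.Agent.Lib.Helper54.FH.aeval_ne_zero d Q₀ hQ0 (by rw [hdQ]; omega)
  have hann : aeval Xm (mu (a : ℝ) b m) = 0 :=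
    aeval_mu d.sq₁ d.sq₂ m d.braid (fun h => by rw [Cfsg.Agent.Lib.Helper54.FH.Data.eq_of_odd d h])
  have heig : Xm * M₀ = x • M₀ := by
    rw [hQ₀, map_mul, map_sub, aeval_X, aeval_C, Algebra.algebraMap_eq_smul_one, sub_mul,
      smul_mul_assoc, one_mul, sub_eq_zero] at hann
    exact hann
  have hsq : M₀ * M₀ = Q₀.eval x • M₀ := aeval_mul_eigen heig Q₀
  have hsym : M₀ᵀ = M₀ := by
    rw [hM₀, aeval_transpose, hXm, cX_transpose d.symm₁ d.symm₂]
  have hq : Q₀.eval x ≠ 0 := by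
    intro h
    rw [h, zero_smul] at hsq
    apply hM0
    have h2 : M₀ * M₀ᴴ = 0 := by
      rw [conjTranspose_eq_transpose_of_trivial, hsym, hsq]
    exact self_mul_conjTranspose_eq_zero.1 h2
  refine ⟨C (Q₀.eval x)⁻¹ * Q₀, ?_, ?_, ?_⟩
  · rw [map_mul, aeval_C, Algebra.algebraMap_eq_smul_one, smul_mul_assoc, one_mul]
    exact smul_ne_zero (inv_ne_zero hq) hM0
  · rw [map_mul, aeval_C, Algebra.algebraMap_eq_smul_one, smul_mul_assoc, one_mul, ← hM₀,
      smul_mul_assoc, mul_smul_comm, hsq, smul_smul, smul_smul]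
    congr 1
    field_simp
  · rw [map_mul, aeval_C, Algebra.algebraMap_eq_smul_one, smul_mul_assoc, one_mul, ← hM₀,
      mul_smul_comm, heig, smul_comm]

end Cfsg.Agent.Lib.Helper61.FH
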