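import Cfsg.Agent.Lib.Helper61.FHIdem
import Cfsg.Agent.Lib.Helper54.FHParseval
import Cfsg.Agent.Lib.Helper71.FHIdtr
import Cfsg.Agent.Lib.Helper71.FHTrace

set_option autoImplicit false

/-! RUNG MULT of the ladder towards S1142: the multiplicity formula. -/

namespace Cfsg.Agent.Lib.Helper61.FH

open Matrix Polynomial

variable {Ω : Type*} [Fintype Ω] [DecidableEq Ω] {m a b : ℕ} {A₁ A₂ : Matrix Ω Ω ℝ}


theorem chi_even_swap (a b x : ℝ) {k : ℕ} (hk : k % 2 = 0) : chi b a x k = chi a b x k := by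
  unfold chi
  rw [if_pos hk, if_pos hk, mul_comm]

theorem mult_formula (d : Data m a b A₁ A₂) (x : ℝ) (hroot : (mu a b m).IsRoot x)
    (hx1 : x ≠ (a : ℝ) * b + 1) (hx2 : x ≠ -((a : ℝ) + b)) :
    ∃ D : ℕ, D ≠ 0 ∧ (D : ℝ) * Ssum a b x m = 4 * Fintype.card Ω := by
  obtain ⟨Q, hne, hidem, hX⟩ := exists_idem d x hroot
  set X := cX (a : ℝ) b A₁ A₂ with hXdef
  set p := aeval X Q with hp
  have ha : (0 : ℝ) < a := by
    have : (2 : ℝ) ≤ a := by exact_mod_cast d.ha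
    linarith
  have hb : (0 : ℝ) < b := by
    have : (2 : ℝ) ≤ b := by exact_mod_cast d.hb
    linarith
  have hsym : pᵀ = p := by
    rw [hp, aeval_transpose, hXdef, cX_transpose d.symm₁ d.symm₂]
  have hc₁ : p * A₁ = A₁ * p := commute_aeval (cX_comm₁ d.sq₁) Q
  have hc₂ : p * A₂ = A₂ * p := commute_aeval (cX_comm₂ d.sq₂) Q
  have hXmem : X ∈ Algebra.adjoin ℝ ({A₁, A₂} : Set (Matrix Ω Ω ℝ)) := by
    have m1 : A₁ ∈ Algebra.adjoin ℝ ({A₁, A₂} : Set (Matrix Ω Ω ℝ)) :=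
      Algebra.subset_adjoin (by simp)
    have m2 : A₂ ∈ Algebra.adjoin ℝ ({A₁, A₂} : Set (Matrix Ω Ω ℝ)) :=
      Algebra.subset_adjoin (by simp)
    rw [hXdef]
    unfold cX
    exact Subalgebra.add_mem _ (Subalgebra.sub_mem _ (Subalgebra.sub_mem _
      (Subalgebra.add_mem _ (Subalgebra.mul_mem _ m1 m2) (Subalgebra.mul_mem _ m2 m1))
      (Subalgebra.smul_mem _ m1 _)) (Subalgebra.smul_mem _ m2 _))
      (Subalgebra.smul_mem _ (Subalgebra.one_mem _) _)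
  have hpmem : p ∈ Algebra.adjoin ℝ ({A₁, A₂} : Set (Matrix Ω Ω ℝ)) := by
    have h1 : p ∈ Algebra.adjoin ℝ ({X} : Set (Matrix Ω Ω ℝ)) := aeval_mem_adjoin_singleton ℝ X
    exact Algebra.adjoin_le (by simpa using hXmem) h1
  obtain ⟨D, hD, hDt⟩ := Cfsg.Agent.Lib.Helper71.FH.trace_idem p hidem hne
  have hX' : cX (b : ℝ) a A₂ A₁ * p = x • p := by rw [cX_swap]; exact hX
  have hx1' : x ≠ (b : ℝ) * a + 1 := by rwa [mul_comm]
  have hx2' : x ≠ -((b : ℝ) + a) := by rwa [add_comm]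
  have tL : ∀ n, trace (p * alt A₁ A₂ n) = trace p / 2 * chi a b x n :=
    Cfsg.Agent.Lib.Helper71.FH.trace_alt ha hb d.sq₁ d.sq₂ p hc₁ hc₂ hX hx1 hx2
  have tR : ∀ n, trace (p * alt A₂ A₁ n) = trace p / 2 * chi b a x n :=
    Cfsg.Agent.Lib.Helper71.FH.trace_alt hb ha d.sq₂ d.sq₁ p hc₂ hc₁ hX' hx1' hx2'
  have tL' : ∀ n, trace (p * (alt A₁ A₂ n)ᵀ) = trace p / 2 * chi a b x n := by
    intro n
    rw [Cfsg.Agent.Lib.Helper54.FH.alt_transpose d.symm₁ d.symm₂]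
    split_ifs with h
    · rw [tR, chi_even_swap a b x h]
    · exact tL n
  have tR' : ∀ n, trace (p * (alt A₂ A₁ n)ᵀ) = trace p / 2 * chi b a x n := by
    intro n
    rw [Cfsg.Agent.Lib.Helper54.FH.alt_transpose d.symm₂ d.symm₁]
    split_ifs with h
    · rw [tL, chi_even_swap b a x h]
    · exact tR n
  have hpar := Cfsg.Agent.Lib.Helper54.FH.parseval d p hpmem
  rw [hsym, hidem] at hpar
  simp only [tL', tR', hDt] at hpar
  have hS : (Fintype.card Ω : ℝ) * D = ((D : ℝ) / 2) ^ 2 * Ssum a b x m := by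
    rw [hpar]
    unfold Ssum
    rw [mul_add, Finset.mul_sum, Finset.mul_sum]
    congr 1 <;> exact Finset.sum_congr rfl (fun k _ => by ring)
  refine ⟨D, hD, ?_⟩
  have hD0 : (D : ℝ) ≠ 0 := by exact_mod_cast hD
  have : (D : ℝ) * ((D : ℝ) * Ssum a b x m) = D * (4 * Fintype.card Ω) := by
    linear_combination (-4 : ℝ) * hS
  exact mul_left_cancel₀ hD0 this

end Cfsg.Agent.Lib.Helper61.FH
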