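import Mathlib

/-! # O'Nan–Scott core: definitions -/

set_option autoImplicit false

namespace Cfsg.Agent.Lib.Helper61.ONS

universe u

/-- `φ` permutes the coordinates by `π` and twists them by `α`. -/
def Spec {T : Type u} [Group T] {m : ℕ} (φ : (Fin m → T) ≃* (Fin m → T)) (π : Equiv.Perm (Fin m))
    (α : Fin m → (T ≃* T)) : Prop :=
  ∀ (f : Fin m → T) (i : Fin m), φ f (π i) = α i (f i)

/-- `X` projects onto every coordinate. -/
def Subdirect {T : Type u} [Group T] {m : ℕ} (X : Subgroup (Fin m → T)) : Prop :=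
  ∀ (i : Fin m) (t : T), ∃ x ∈ X, x i = t

/-- the two coordinates are linked in `X`. -/
def Linked {T : Type u} [Group T] {m : ℕ} (X : Subgroup (Fin m → T)) (i j : Fin m) : Prop :=
  ∀ x ∈ X, x i = 1 → x j = 1

end Cfsg.Agent.Lib.Helper61.ONS
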