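import Mathlib
import Cfsg.Agent.Lib.Helper61.ONSDefs
import Cfsg.Agent.Lib.Helper67.ONSSc3
import Cfsg.Agent.Lib.Helper67.ONSAut

set_option autoImplicit false

namespace Cfsg.Agent.Lib.Helper61.ONS

open Cfsg.Agent.Lib.Helper67.ONS

universe u v

variable {T : Type u} [Group T] [IsSimpleGroup T] {m : ℕ}

omit [IsSimpleGroup T] in
theorem spec_one : Spec (1 : MulAut (Fin m → T)) 1 (fun _ => MulEquiv.refl T) := by
  intro f i; rfl

omit [IsSimpleGroup T] in
theorem spec_mul {φ φ' : MulAut (Fin m → T)} {π π' : Equiv.Perm (Fin m)} {α α' : Fin m → (T ≃* T)}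
    (h1 : Spec φ π α) (h2 : Spec φ' π' α') :
    Spec (φ' * φ) (π' * π) (fun i => (α i).trans (α' (π i))) := by
  intro f i
  show φ' (φ f) (π' (π i)) = α' (π i) (α i (f i))
  rw [h2, h1]

/-- TR -/
theorem trans_coord (hT : ¬ IsMulCommutative T) {Γ : Type v} [Group Γ]
    (ψ : Γ →* MulAut (Fin m → T))
    (hmin : ∀ M : Subgroup (Fin m → T), M.Normal → (∀ γ, ∀ y ∈ M, ψ γ y ∈ M) → M = ⊥ ∨ M = ⊤)
    (i j : Fin m) : ∃ (γ : Γ) (π : Equiv.Perm (Fin m)) (α : Fin m → (T ≃* T)),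
      Spec (ψ γ) π α ∧ π i = j := by
  classical
  let O : Set (Fin m) := {l | ∃ (γ : Γ) (π : Equiv.Perm (Fin m)) (α : Fin m → (T ≃* T)),
      Spec (ψ γ) π α ∧ π i = l}
  let M : Subgroup (Fin m → T) :=
    { carrier := {f | ∀ l, l ∉ O → f l = 1}
      mul_mem' := by
        intro a b ha hb l hl
        rw [Pi.mul_apply, ha l hl, hb l hl, one_mul]
      one_mem' := fun l _ => rfl
      inv_mem' := by
        intro a ha l hl
        rw [Pi.inv_apply, ha l hl, inv_one] }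
  have hMn : M.Normal := by
    constructor
    intro f hf g l hl
    rw [Pi.mul_apply, Pi.mul_apply, hf l hl, mul_one, Pi.inv_apply, mul_inv_cancel]
  have hMinv : ∀ γ, ∀ y ∈ M, ψ γ y ∈ M := by
    intro γ y hy l hl
    obtain ⟨π, α, hs⟩ := aut_pi hT (ψ γ)
    obtain ⟨l0, rfl⟩ := π.surjective l
    rw [hs]
    have hl0 : l0 ∉ O := by
      rintro ⟨γ0, π0, α0, hs0, h0⟩
      apply hl
      refine ⟨γ * γ0, π * π0, fun i => (α0 i).trans (α (π0 i)), ?_, ?_⟩
      · rw [map_mul]; exact spec_mul hs0 hs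
      · rw [Equiv.Perm.mul_apply, h0]
    rw [hy l0 hl0, map_one]
  have hiO : i ∈ O := ⟨1, 1, fun _ => MulEquiv.refl T, by rw [map_one]; exact spec_one, rfl⟩
  obtain ⟨t, ht⟩ := exists_ne (1 : T)
  rcases hmin M hMn hMinv with h | h
  · exfalso
    have h1 : Pi.mulSingle i t ∈ M := by
      intro l hl
      have : l ≠ i := fun e => hl (e ▸ hiO)
      rw [Pi.mulSingle_eq_of_ne this]
    rw [h, Subgroup.mem_bot] at h1
    have := congrFun h1 i
    rw [Pi.mulSingle_eq_same] at this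
    exact ht this
  · by_contra hj
    have h1 : Pi.mulSingle j t ∈ M := by rw [h]; trivial
    have := h1 j hj
    rw [Pi.mulSingle_eq_same] at this
    exact ht this

/-- `ψ γ` maps `X` onto `X`. -/
theorem exists_preimage {Γ : Type v} [Group Γ] (ψ : Γ →* MulAut (Fin m → T)) (X : Subgroup (Fin m → T))
    (hinv : ∀ γ, ∀ x ∈ X, ψ γ x ∈ X) (γ : Γ) (y : Fin m → T) (hy : y ∈ X) :
    ∃ x ∈ X, ψ γ x = y := by
  refine ⟨ψ γ⁻¹ y, hinv _ _ hy, ?_⟩
  rw [← MulAut.mul_apply, ← map_mul, mul_inv_cancel, map_one]; rfl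

/-- PROD -/
theorem prod_case (hT : ¬ IsMulCommutative T) {Γ : Type v} [Group Γ]
    (ψ : Γ →* MulAut (Fin m → T)) (X : Subgroup (Fin m → T))
    (hinv : ∀ γ, ∀ x ∈ X, ψ γ x ∈ X)
    (hmax : ∀ Y : Subgroup (Fin m → T), X ≤ Y → (∀ γ, ∀ y ∈ Y, ψ γ y ∈ Y) → Y = X ∨ Y = ⊤)
    (hmin : ∀ M : Subgroup (Fin m → T), M.Normal → (∀ γ, ∀ y ∈ M, ψ γ y ∈ M) → M = ⊥ ∨ M = ⊤)
    (hns : ¬ Subdirect X) :
    ∃ K : Fin m → Subgroup T, (∀ i, K i ≠ ⊤) ∧ ∀ f, f ∈ X ↔ ∀ i, f i ∈ K i := by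
  classical
  unfold Subdirect at hns
  push Not at hns
  obtain ⟨i0, t0, h0⟩ := hns
  let R : Fin m → Subgroup T := fun i => X.map (Pi.evalMonoidHom (fun _ => T) i)
  have hRmem : ∀ i t, t ∈ R i ↔ ∃ x ∈ X, x i = t := fun i t => Iff.rfl
  have hR : ∀ i, R i ≠ ⊤ := by
    intro i htop
    obtain ⟨γ, π, α, hs, hπ⟩ := trans_coord hT ψ hmin i0 i
    have h1 : α i0 t0 ∈ R i := by rw [htop]; trivial
    obtain ⟨y, hy, hyi⟩ := (hRmem _ _).mp h1
    obtain ⟨x, hx, hxy⟩ := exists_preimage ψ X hinv γ y hy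
    apply h0 x hx
    have h2 := hs x i0
    rw [hxy, hπ, hyi] at h2
    exact ((α i0).injective h2).symm
  let Y : Subgroup (Fin m → T) := Subgroup.pi Set.univ R
  have hYmem : ∀ f, f ∈ Y ↔ ∀ i, f i ∈ R i := by
    intro f
    simp [Y, Subgroup.mem_pi]
  have hXY : X ≤ Y := by
    intro x hx
    rw [hYmem]
    intro i
    exact ⟨x, hx, rfl⟩
  have hYinv : ∀ γ, ∀ y ∈ Y, ψ γ y ∈ Y := by
    intro γ y hy
    rw [hYmem] at hy ⊢
    intro l
    obtain ⟨π, α, hs⟩ := aut_pi hT (ψ γ)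
    obtain ⟨l0, rfl⟩ := π.surjective l
    obtain ⟨x, hx, hxl⟩ := (hRmem _ _).mp (hy l0)
    rw [hs, ← hxl, ← hs]
    exact ⟨ψ γ x, hinv γ x hx, rfl⟩
  have hYtop : Y ≠ ⊤ := by
    intro h
    have h1 : (fun _ => t0 : Fin m → T) ∈ Y := by rw [h]; trivial
    rw [hYmem] at h1
    obtain ⟨x, hx, hxi⟩ := (hRmem _ _).mp (h1 i0)
    exact h0 x hx hxi
  rcases hmax Y hXY hYinv with h | h
  · exact ⟨R, hR, fun f => by rw [← h, hYmem]⟩
  · exact absurd h hYtop

/-- invariance of `Linked` -/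
theorem linked_spec {Γ : Type v} [Group Γ] (ψ : Γ →* MulAut (Fin m → T)) (X : Subgroup (Fin m → T))
    (hinv : ∀ γ, ∀ x ∈ X, ψ γ x ∈ X) (γ : Γ) (π : Equiv.Perm (Fin m)) (α : Fin m → (T ≃* T))
    (hs : Spec (ψ γ) π α) (i j : Fin m) : Linked X i j ↔ Linked X (π i) (π j) := by
  constructor
  · intro h y hy hyi
    obtain ⟨x, hx, rfl⟩ := exists_preimage ψ X hinv γ y hy
    rw [hs] at hyi ⊢
    have : x i = 1 := by
      apply (α i).injective; rw [hyi, map_one]
    rw [h x hx this, map_one]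
  · intro h x hx hxi
    have h1 := h (ψ γ x) (hinv γ x hx) (by rw [hs, hxi, map_one])
    rw [hs] at h1
    apply (α j).injective; rw [h1, map_one]

/-- DIAG -/
theorem diag_case (hT : ¬ IsMulCommutative T) {Γ : Type v} [Group Γ]
    (ψ : Γ →* MulAut (Fin m → T)) (X : Subgroup (Fin m → T))
    (hinv : ∀ γ, ∀ x ∈ X, ψ γ x ∈ X) (hne : X ≠ ⊤)
    (hmin : ∀ M : Subgroup (Fin m → T), M.Normal → (∀ γ, ∀ y ∈ M, ψ γ y ∈ M) → M = ⊥ ∨ M = ⊤)
    (hs : Subdirect X) :
    ∃ (e : (Fin m → T) ≃* (Fin m → T)) (k : ℕ) (c : Fin m → Fin m), 2 ≤ k ∧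
      (∀ j, Nat.card {i // c i = j} = k ∨ Nat.card {i // c i = j} = 0) ∧
      ∀ f, f ∈ X ↔ ∀ i j, c i = c j → e f i = e f j := by
  classical
  obtain ⟨c, β, hcc, hcl, hβ, hmem⟩ := scott hT X hs
  let e : (Fin m → T) ≃* (Fin m → T) := MulEquiv.piCongrRight (fun i => (β i).symm)
  have he : ∀ f i, e f i = (β i).symm (f i) := fun f i => rfl
  have hmem' : ∀ f, f ∈ X ↔ ∀ i j, c i = c j → e f i = e f j := by
    intro f
    rw [hmem]
    have hrep : ∀ i, e f (c i) = f (c i) := by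
      intro i
      rw [he, hβ (c i) (hcc i)]; rfl
    constructor
    · intro h
      have h1 : ∀ i, e f i = f (c i) := by
        intro i
        rw [he, h i, MulEquiv.symm_apply_apply]
      intro i j hij
      rw [h1, h1, hij]
    · intro h i
      have h1 := h i (c i) (hcc i).symm
      rw [hrep, he] at h1
      rw [← h1, MulEquiv.apply_symm_apply]
  -- class sizes
  let sz : Fin m → ℕ := fun j => Nat.card {i // c i = c j}
  have hsz : ∀ j j', sz j = sz j' := by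
    intro j j'
    obtain ⟨γ, π, α, hsp, hπ⟩ := trans_coord hT ψ hmin j j'
    apply Nat.card_congr
    refine
      { toFun := fun i => ⟨π i.1, ?_⟩
        invFun := fun i => ⟨π.symm i.1, ?_⟩
        left_inv := fun i => by simp
        right_inv := fun i => by simp }
    · rw [hcl, ← hπ, ← linked_spec ψ X hinv γ π α hsp, ← hcl]; exact i.2
    · rw [hcl, linked_spec ψ X hinv γ π α hsp, hπ, Equiv.apply_symm_apply, ← hcl]; exact i.2
  rcases Nat.eq_zero_or_pos m with hm0 | hmpos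
  · exfalso
    subst hm0
    apply hne
    rw [eq_top_iff]
    intro f _
    have : f = 1 := Subsingleton.elim _ _
    rw [this]; exact X.one_mem
  let j0 : Fin m := ⟨0, hmpos⟩
  refine ⟨e, sz j0, c, ?_, ?_, hmem'⟩
  · by_contra hlt
    have hpos : ∀ j, 0 < sz j := by
      intro j
      haveI : Nonempty {i // c i = c j} := ⟨⟨j, rfl⟩⟩
      exact Nat.card_pos
    have h1 : ∀ j, sz j = 1 := by
      intro j
      have := hpos j0
      rw [hsz j j0]; omega
    have hcid : ∀ j, c j = j := by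
      intro j
      have := (Nat.card_eq_one_iff_unique.mp (h1 j)).1
      have h2 := this.elim ⟨c j, hcc j⟩ ⟨j, rfl⟩
      exact congrArg Subtype.val h2
    apply hne
    rw [eq_top_iff]
    intro f _
    rw [hmem]
    intro i
    rw [hβ i (hcid i), hcid i]; rfl
  · intro j
    by_cases hj : c j = j
    · left
      have : sz j = Nat.card {i // c i = j} := by
        simp only [sz]; rw [hj]
      rw [← this, hsz j j0]
    · right
      haveI : IsEmpty {i // c i = j} := by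
        constructor
        rintro ⟨i, hi⟩
        apply hj
        rw [← hi, hcc]
      exact Nat.card_of_isEmpty

end Cfsg.Agent.Lib.Helper61.ONS
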