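import Mathlib

set_option autoImplicit false

namespace Cfsg.Agent.Lib.Helper61.Semi

/-- A group of semilinear maps `x ↦ a σ(x)` of a finite field of odd characteristic which is
transitive on the non-zero elements has a normal subgroup of index two. -/
theorem index_two_of_semilinear (q : ℕ) [Fact q.Prime] (hq : q ≠ 2) {V : Type*} [AddCommGroup V]
    [Module (ZMod q) V] {G : Type*} [Group G] (ρ : G →* (V ≃ₗ[ZMod q] V))
    (htrans : ∀ v w : V, v ≠ 0 → w ≠ 0 → ∃ g : G, ρ g v = w)
    {F : Type*} [Field F] [Fintype F] (e : V ≃+ F)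
    (hsl : ∀ g : G, ∃ (a : F) (σ : F ≃+* F), ∀ v : V, e (ρ g v) = a * σ (e v)) :
    ∃ N : Subgroup G, N.Normal ∧ N.index = 2 := by
  set u : V := e.symm 1 with hu
  have heu : e u = 1 := by simp [hu]
  have hu0 : u ≠ 0 := by
    intro h
    rw [h, map_zero] at heu
    exact zero_ne_one heu
  have hchar : ringChar F ≠ 2 := by
    intro h2
    have h20 : (2 : F) = 0 := by
      have := ringChar.Nat.cast_ringChar (R := F)
      rw [h2] at this
      exact_mod_cast this
    have h1 : u + u = 0 := by
      apply e.injective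
      rw [map_add, heu, map_zero, one_add_one_eq_two, h20]
    have h3 : (2 : ZMod q) • u = 0 := by rw [two_smul, h1]
    have h4 : (2 : ZMod q) = 0 := (smul_eq_zero.mp h3).resolve_right hu0
    have h5 : ((2 : ℕ) : ZMod q) = 0 := by exact_mod_cast h4
    rw [ZMod.natCast_eq_zero_iff] at h5
    exact hq ((Nat.prime_dvd_prime_iff_eq (Fact.out) Nat.prime_two).1 h5)
  set m := Fintype.card F / 2 with hm
  let α : G → F := fun g => e (ρ g u)
  have hα : ∀ g : G, ∃ σ : F ≃+* F, ∀ v : V, e (ρ g v) = α g * σ (e v) := by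
    intro g
    obtain ⟨a, σ, h⟩ := hsl g
    refine ⟨σ, fun v => ?_⟩
    have : α g = a := by
      change e (ρ g u) = a
      rw [h u, heu, map_one, mul_one]
    rw [this, h v]
  have hα0 : ∀ g, α g ≠ 0 := by
    intro g h
    have h1 : ρ g u = 0 := by
      apply e.injective
      rw [map_zero]; exact h
    exact hu0 ((ρ g).injective (by rw [h1, map_zero]))
  have hdich : ∀ g, α g ^ m = 1 ∨ α g ^ m = -1 := fun g => FiniteField.pow_dichotomy hchar (hα0 g)
  have hmul : ∀ g h, α (g * h) ^ m = α g ^ m * α h ^ m := by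
    intro g h
    obtain ⟨σ, hσ⟩ := hα g
    have h1 : α (g * h) = α g * σ (α h) := by
      change e (ρ (g * h) u) = _
      rw [map_mul]
      exact hσ (ρ h u)
    rw [h1, mul_pow, ← map_pow σ]
    rcases hdich h with h2 | h2
    · rw [h2, map_one]
    · rw [h2, map_neg, map_one]
  have hone : α 1 ^ m = 1 := by
    have : α 1 = 1 := by
      change e (ρ 1 u) = 1
      rw [map_one]; exact heu
    rw [this, one_pow]
  let f : G →* F := { toFun := fun g => α g ^ m, map_one' := hone, map_mul' := hmul }
  have hne : (1 : F) ≠ -1 := by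
    intro h
    have : (2 : F) = 0 := by
      have h2 : (1 : F) + 1 = 0 := by nth_rewrite 2 [h]; simp
      rw [← one_add_one_eq_two]; exact h2
    exact (Ring.two_ne_zero hchar) this
  obtain ⟨c, hc⟩ := FiniteField.exists_nonsquare hchar
  have hc0 : c ≠ 0 := by
    rintro rfl
    exact hc (IsSquare.zero)
  obtain ⟨g0, hg0⟩ := htrans u (e.symm c) hu0 (by
    intro h
    apply hc0
    have := congrArg e h
    simpa using this)
  have hg0' : α g0 ^ m = -1 := by
    have h1 : α g0 = c := by
      change e (ρ g0 u) = c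
      rw [hg0]; simp
    rcases hdich g0 with h | h
    · exfalso
      rw [h1] at h
      exact hc ((FiniteField.isSquare_iff hchar hc0).2 h)
    · exact h
  refine ⟨f.ker, inferInstance, ?_⟩
  rw [Subgroup.index_eq_two_iff]
  refine ⟨g0, fun b => ?_⟩
  simp only [MonoidHom.mem_ker]
  change Xor (α (b * g0) ^ m = 1) (α b ^ m = 1)
  rw [hmul, hg0']
  rcases hdich b with h | h
  · rw [h]
    right
    refine ⟨rfl, ?_⟩
    simpa using hne.symm
  · rw [h]
    left
    refine ⟨by simp, ?_⟩
    exact hne.symm

end Cfsg.Agent.Lib.Helper61.Semi
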