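import Mathlib

set_option autoImplicit false
set_option linter.deprecated false

namespace Cfsg.Agent.Lib.Helper61.Semi

universe u

/-- a finite commutative domain is ring-isomorphic to a finite field living in `Type`. -/
theorem exists_small_field (R : Type u) [CommRing R] [IsDomain R] [Finite R] :
    ∃ (F : Type) (_ : Field F) (_ : Fintype F), Nonempty (F ≃+* R) := by
  classical
  let _ : Field R := (Finite.isField_of_domain R).toField
  have hs : Small.{0} R := Countable.toSmall R
  have : Finite (Shrink.{0} R) := Finite.of_equiv R (equivShrink.{0} R)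
  exact ⟨Shrink.{0} R, inferInstance, Fintype.ofFinite _, ⟨Shrink.ringEquiv.{0} R⟩⟩

section
variable {k V : Type*} [Field k] [AddCommGroup V] [Module k V]

theorem comm_of_mem_adjoin (T : Module.End k V) {f : Module.End k V}
    (hf : f ∈ Algebra.adjoin k {T}) : T * f = f * T := by
  have hle : Algebra.adjoin k {T} ≤ Subalgebra.centralizer k {T} := by
    apply Algebra.adjoin_le
    intro x hx
    rw [Set.mem_singleton_iff] at hx
    subst hx
    rw [SetLike.mem_coe, Subalgebra.mem_centralizer_iff]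
    intro y hy
    rw [Set.mem_singleton_iff] at hy
    rw [hy]
  have := hle hf
  rw [Subalgebra.mem_centralizer_iff] at this
  exact this T rfl

variable (T : Module.End k V)
  (hirr : ∀ W : Submodule k V, (∀ v ∈ W, T v ∈ W) → W = ⊥ ∨ W = ⊤)
include hirr

theorem injective_of_mem_adjoin {f : Module.End k V} (hf : f ∈ Algebra.adjoin k {T}) (h0 : f ≠ 0) :
    Function.Injective f := by
  have hc := comm_of_mem_adjoin T hf
  rcases hirr (LinearMap.ker f) (by
    intro v hv
    rw [LinearMap.mem_ker] at hv ⊢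
    have : f (T v) = T (f v) := by
      rw [← Module.End.mul_apply, ← Module.End.mul_apply, hc]
    rw [this, hv, map_zero]) with h | h
  · exact LinearMap.ker_eq_bot.1 h
  · exact (h0 (LinearMap.ker_eq_top.1 h)).elim

theorem exists_mem_adjoin_apply {v0 : V} (hv0 : v0 ≠ 0) (v : V) :
    ∃ f ∈ Algebra.adjoin k {T}, f v0 = v := by
  let W : Submodule k V :=
    Submodule.map (LinearMap.applyₗ v0) (Subalgebra.toSubmodule (Algebra.adjoin k {T}))
  have hW : ∀ w, w ∈ W ↔ ∃ f ∈ Algebra.adjoin k {T}, f v0 = w := by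
    intro w
    simp only [W, Submodule.mem_map, Subalgebra.mem_toSubmodule, LinearMap.applyₗ_apply_apply]
  have hT : T ∈ Algebra.adjoin k {T} := Algebra.subset_adjoin (Set.mem_singleton T)
  rcases hirr W (by
    intro w hw
    obtain ⟨f, hf, rfl⟩ := (hW w).1 hw
    exact (hW _).2 ⟨T * f, Subalgebra.mul_mem _ hT hf, rfl⟩) with h | h
  · exfalso
    apply hv0
    have : v0 ∈ W := (hW v0).2 ⟨1, Subalgebra.one_mem _, rfl⟩
    rw [h] at this
    simpa using this
  · apply (hW v).1
    rw [h]; trivial

end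

theorem semilinear_core {k V : Type*} [Field k] [AddCommGroup V] [Module k V] [Finite V]
    [Nontrivial V] (T : Module.End k V)
    (hirr : ∀ W : Submodule k V, (∀ v ∈ W, T v ∈ W) → W = ⊥ ∨ W = ⊤) :
    ∃ (F : Type) (_ : Field F) (_ : Fintype F) (e : V ≃+ F), ∀ h : V ≃ₗ[k] V,
      h.conjAlgEquiv k T ∈ Algebra.adjoin k {T} →
      ∃ (a : F) (σ : F ≃+* F), ∀ v, e (h v) = a * σ (e v) := by
  classical
  set S := Algebra.adjoin k {T} with hS
  let cr : CommRing S := Algebra.adjoinCommRingOfComm k (by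
    intro a ha b hb
    rw [Set.mem_singleton_iff] at ha hb
    rw [ha, hb])
  have hfinEnd : Finite (Module.End k V) := Finite.of_injective (fun f : Module.End k V => (f : V → V))
    DFunLike.coe_injective
  have hfin : Finite S := Finite.of_injective (fun f : S => (f : Module.End k V)) Subtype.val_injective
  have hnz : NoZeroDivisors S := by
    refine ⟨?_⟩
    intro a b hab
    by_cases ha : a = 0
    · exact Or.inl ha
    · right
      have ha' : (a : Module.End k V) ≠ 0 := fun h => ha (Subtype.ext h)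
      have hinj := injective_of_mem_adjoin T hirr a.2 ha'
      apply Subtype.ext
      ext v
      apply hinj
      have h1 : ((a * b : S) : Module.End k V) v = 0 := by rw [hab]; rfl
      have h2 : (a : Module.End k V) (((0 : S) : Module.End k V) v) = 0 := by
        change (a : Module.End k V) 0 = 0
        rw [map_zero]
      rw [h2]
      exact h1
  have hnt : Nontrivial S := by
    refine ⟨⟨0, 1, ?_⟩⟩
    intro h
    have h1 : ((0 : S) : Module.End k V) = ((1 : S) : Module.End k V) := congrArg Subtype.val h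
    exact zero_ne_one h1
  have hdom : IsDomain S := NoZeroDivisors.to_isDomain S
  obtain ⟨F, iF, iFF, ⟨φ⟩⟩ := exists_small_field S
  obtain ⟨v0, hv0⟩ := exists_ne (0 : V)
  let ε0 : S →+ V :=
    { toFun := fun f => (f : Module.End k V) v0
      map_zero' := rfl
      map_add' := fun f g => rfl }
  have hε : Function.Bijective ε0 := by
    constructor
    · rw [injective_iff_map_eq_zero]
      intro f hf
      by_contra hne
      have hne' : (f : Module.End k V) ≠ 0 := fun h => hne (Subtype.ext h)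
      have hinj := injective_of_mem_adjoin T hirr f.2 hne'
      exact hv0 (hinj (by rw [map_zero]; exact hf))
    · intro v
      obtain ⟨f, hf, hfv⟩ := exists_mem_adjoin_apply T hirr hv0 v
      exact ⟨⟨f, hf⟩, hfv⟩
  let εe : S ≃+ V := AddEquiv.ofBijective ε0 hε
  have hεe : ∀ f : S, εe f = (f : Module.End k V) v0 := fun f => rfl
  refine ⟨F, iF, iFF, εe.symm.trans φ.symm.toAddEquiv, ?_⟩
  intro h hh
  let c := h.conjAlgEquiv k
  have hmap : ∀ f : S, c (f : Module.End k V) ∈ S := by
    have hle : S.map c.toAlgHom ≤ S := by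
      rw [hS, AlgHom.map_adjoin_singleton]
      apply Algebra.adjoin_le
      intro x hx
      rw [Set.mem_singleton_iff] at hx
      rw [hx]; exact hh
    intro f
    exact hle (Subalgebra.mem_map.2 ⟨f, f.2, rfl⟩)
  let σ0 : S →ₐ[k] S := (c.toAlgHom.comp S.val).codRestrict S hmap
  have hσ0 : ∀ f : S, ((σ0 f : S) : Module.End k V) = c (f : Module.End k V) := fun f => rfl
  have hσinj : Function.Injective σ0 := by
    intro f g hfg
    apply Subtype.ext
    apply c.injective
    rw [← hσ0, ← hσ0, hfg]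
  have hσbij : Function.Bijective σ0 := Finite.injective_iff_bijective.1 hσinj
  let σS : S ≃+* S := RingEquiv.ofBijective σ0.toRingHom hσbij
  have hσS : ∀ f : S, ((σS f : S) : Module.End k V) = c (f : Module.End k V) := fun f => rfl
  refine ⟨φ.symm (εe.symm (h v0)), φ.trans (σS.trans φ.symm), ?_⟩
  intro v
  set f := εe.symm v with hf
  set g := εe.symm (h v0) with hg
  have hfv : (f : Module.End k V) v0 = v := by rw [← hεe, hf, AddEquiv.apply_symm_apply]
  have hgv : (g : Module.End k V) v0 = h v0 := by rw [← hεe, hg, AddEquiv.apply_symm_apply]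
  have key : εe.symm (h v) = σS f * g := by
    rw [AddEquiv.symm_apply_eq, hεe]
    change h v = ((σS f : S) : Module.End k V) ((g : Module.End k V) v0)
    rw [hgv, hσS]
    change h v = h ((f : Module.End k V) (h.symm (h v0)))
    rw [LinearEquiv.symm_apply_apply, hfv]
  change φ.symm (εe.symm (h v)) = φ.symm g * φ.symm (σS (φ (φ.symm f)))
  rw [key, map_mul, RingEquiv.apply_symm_apply, mul_comm]

/-- **T2.** A linear group with an irreducible cyclic normal subgroup is semilinear over a field. -/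
theorem semilinear_of_irreducible_cyclic (q : ℕ) [Fact q.Prime] {V : Type*} [AddCommGroup V]
    [Module (ZMod q) V] [Finite V] [Nontrivial V] (H : Subgroup (V ≃ₗ[ZMod q] V)) (A : Subgroup H)
    (hAn : A.Normal) (hAc : IsCyclic A)
    (hirr : ∀ W : Submodule (ZMod q) V,
      (∀ a ∈ A, ∀ v ∈ W, ((a : H) : V ≃ₗ[ZMod q] V) v ∈ W) → W = ⊥ ∨ W = ⊤) :
    ∃ (F : Type) (_ : Field F) (_ : Fintype F) (e : V ≃+ F), ∀ h : H,
      ∃ (a : F) (σ : F ≃+* F), ∀ v : V, e ((h : V ≃ₗ[ZMod q] V) v) = a * σ (e v) := by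
  classical
  have hfinGL : Finite (V ≃ₗ[ZMod q] V) :=
    Finite.of_injective (fun f : V ≃ₗ[ZMod q] V => (f : V → V)) DFunLike.coe_injective
  have hfinH : Finite H := inferInstance
  have hfinA : Finite A := inferInstance
  obtain ⟨a0, ha0⟩ := IsCyclic.exists_generator (α := A)
  obtain ⟨ψ, hψ⟩ : ∃ ψ : A →* Module.End (ZMod q) V,
      ∀ (x : A) (v : V), ψ x v = (((x : H) : V ≃ₗ[ZMod q] V)) v :=
    ⟨(LinearEquiv.automorphismGroup.toLinearMapMonoidHom).comp (H.subtype.comp A.subtype),
      fun x v => rfl⟩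
  obtain ⟨T, hT⟩ : ∃ T, T = ψ a0 := ⟨_, rfl⟩
  have hpow : ∀ x : A, ∃ n : ℕ, ψ x = T ^ n := by
    intro x
    have hx : x ∈ Submonoid.powers a0 := mem_powers_iff_mem_zpowers.2 (ha0 x)
    obtain ⟨n, hn⟩ := hx
    exact ⟨n, by rw [← hn, map_pow, hT]⟩
  have hirrT : ∀ W : Submodule (ZMod q) V, (∀ v ∈ W, T v ∈ W) → W = ⊥ ∨ W = ⊤ := by
    intro W hW
    apply hirr W
    have hWn : ∀ (n : ℕ), ∀ v ∈ W, (T ^ n) v ∈ W := by
      intro n
      induction n with
      | zero => intro v hv; simpa using hv
      | succ m ih =>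
        intro v hv
        rw [pow_succ, Module.End.mul_apply]
        exact ih _ (hW v hv)
    intro a ha v hv
    obtain ⟨n, hn⟩ := hpow ⟨a, ha⟩
    have := hWn n v hv
    rw [← hn, hψ] at this
    exact this
  obtain ⟨F, iF, iFF, e, he⟩ := semilinear_core T hirrT
  refine ⟨F, iF, iFF, e, fun h => he (h : V ≃ₗ[ZMod q] V) ?_⟩
  have hmem : h * (a0 : H) * h⁻¹ ∈ A := hAn.conj_mem a0 a0.2 h
  obtain ⟨n, hn⟩ := hpow ⟨_, hmem⟩
  have : (h : V ≃ₗ[ZMod q] V).conjAlgEquiv (ZMod q) T = ψ ⟨_, hmem⟩ := by
    ext v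
    rw [hψ, LinearEquiv.conjAlgEquiv_apply, hT]
    simp only [LinearMap.comp_apply, LinearEquiv.coe_coe, hψ]
    rfl
  rw [this, hn]
  exact Subalgebra.pow_mem _ (Algebra.subset_adjoin (Set.mem_singleton T)) n

end Cfsg.Agent.Lib.Helper61.Semi
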